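import Mathlib
import Cfsg.Agent.Lib.Helper44.TPStmt
import Cfsg.Agent.Lib.Helper44.NegPairs

/-!
# S5973 / ORTHSUM (call by helper44; adapted from Helper97.TSORTHSUM)

Orthogonal sum of nondegenerate subspaces for the standard plus-type form.
-/

set_option autoImplicit false

universe u

open scoped Matrix

namespace Cfsg.Agent.Lib.Helper48.TPORTHSUM

open Cfsg.Agent.Lib.Helper44.TPStmt
open QuadraticMap

theorem pol_add_left (d : ℕ) (F : Type u) [Field F] (x x' y : J d → F) :
    polar (Cfsg.quadFormPlus d F) (x + x') y =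
      polar (Cfsg.quadFormPlus d F) x y + polar (Cfsg.quadFormPlus d F) x' y :=
  polar_add_left (Cfsg.Agent.Lib.Helper44.NegPairs.plusQ d F) x x' y

theorem pol_add_right (d : ℕ) (F : Type u) [Field F] (x y y' : J d → F) :
    polar (Cfsg.quadFormPlus d F) x (y + y') =
      polar (Cfsg.quadFormPlus d F) x y + polar (Cfsg.quadFormPlus d F) x y' :=
  polar_add_right (Cfsg.Agent.Lib.Helper44.NegPairs.plusQ d F) x y y'

theorem pol_comm (d : ℕ) (F : Type u) [Field F] (x y : J d → F) :
    polar (Cfsg.quadFormPlus d F) x y = polar (Cfsg.quadFormPlus d F) y x :=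
  polar_comm _ x y

theorem main : OrthSum.{u} := by
  intro F _ _ d A B hA hB hAB
  have hinf : A ⊓ B = ⊥ := by
    rw [eq_bot_iff]
    intro v hv
    obtain ⟨hv1, hv2⟩ := Submodule.mem_inf.1 hv
    by_contra hv0
    have hv0' : v ≠ 0 := fun h => hv0 ((Submodule.mem_bot F).2 h)
    obtain ⟨⟨x, hx, hxv⟩, -⟩ := hA v hv1 hv0'
    exact hxv (hAB x hx v hv2)
  refine ⟨?_, hinf, ?_⟩
  · intro w hw hw0
    obtain ⟨a, ha, b, hb, rfl⟩ := Submodule.mem_sup.1 hw
    have key : ∃ y ∈ A ⊔ B, polar (Cfsg.quadFormPlus d F) y (a + b) ≠ 0 := by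
      by_cases ha0 : a = 0
      · have hb0 : b ≠ 0 := by
          intro h
          apply hw0
          rw [ha0, h, add_zero]
        obtain ⟨⟨y, hy, hyb⟩, -⟩ := hB b hb hb0
        refine ⟨y, Submodule.mem_sup_right hy, ?_⟩
        rw [pol_add_right, pol_comm d F y a, hAB a ha y hy, zero_add]
        exact hyb
      · obtain ⟨⟨y, hy, hya⟩, -⟩ := hA a ha ha0
        refine ⟨y, Submodule.mem_sup_left hy, ?_⟩
        rw [pol_add_right, hAB y hy b hb, add_zero]
        exact hya
    obtain ⟨y, hy, hyw⟩ := key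
    refine ⟨⟨y, hy, hyw⟩, ⟨y, hy, ?_⟩⟩
    rw [pol_comm]
    exact hyw
  · have h := Submodule.finrank_sup_add_finrank_inf_eq A B
    rw [hinf, finrank_bot, add_zero] at h
    exact h

end Cfsg.Agent.Lib.Helper48.TPORTHSUM
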