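import Mathlib
import Cfsg.Agent.Lib.Helper52.SpStmt

set_option autoImplicit false

/-! S5171 piece [R2O]: the image of the transvection `t (f (m-1)) 1` normalizes `R2` and
`PU ∩ n⁻¹ PU n ≤ R2`. -/

namespace Cfsg.Agent.Lib.Helper48.SpR2O

open Matrix Cfsg.Agent.Lib.Helper13.SympMat Cfsg.Agent.Lib.Helper43.SpBasic
  Cfsg.Agent.Lib.Helper43.SpSylow
open Cfsg.Agent.Lib.Helper43.PSLnUT (IsUT isUT_one)
open Cfsg.Agent.Lib.Helper52.SpStmt

universe u

variable {m : ℕ} {F : Type u} [Field F] [Fintype F]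

omit [Fintype F] in
theorem entry_eq (M : Matrix (Fin m ⊕ Fin m) (Fin m ⊕ Fin m) F) (i j : Fin m ⊕ Fin m) :
    M i j = (M *ᵥ Pi.single j 1) i := by
  rw [Matrix.mulVec_single_one]
  rfl

theorem u1 {A : Matrix.symplecticGroup (Fin m) F} (hA : A ∈ U) (i k : Fin m) :
    (A : Matrix (Fin m ⊕ Fin m) (Fin m ⊕ Fin m) F) (Sum.inr i) (Sum.inl k) = 0 :=
  congrFun (congrFun hA.1 i) k

theorem u2 {A : Matrix.symplecticGroup (Fin m) F} (hA : A ∈ U) (l : Fin m)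
    (hl : ∀ k : Fin m, k ≤ l) (k : Fin m) :
    (A : Matrix (Fin m ⊕ Fin m) (Fin m ⊕ Fin m) F) (Sum.inl l) (Sum.inl k) =
      if k = l then 1 else 0 := by
  by_cases h : k = l
  · rw [if_pos h, h]
    exact hA.2.2 l
  · rw [if_neg h]
    exact hA.2.1 l k (lt_of_le_of_ne (hl k) h)

theorem u3 {A : Matrix.symplecticGroup (Fin m) F} (hA : A ∈ U) (l : Fin m)
    (hl : ∀ k : Fin m, k ≤ l) (k : Fin m) :
    (A : Matrix (Fin m ⊕ Fin m) (Fin m ⊕ Fin m) F) (Sum.inr k) (Sum.inr l) =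
      if k = l then 1 else 0 := by
  obtain ⟨-, h1, -⟩ := blocks hA
  have h3 : (A : Matrix (Fin m ⊕ Fin m) (Fin m ⊕ Fin m) F).toBlocks₂₂ *
      ((A : Matrix (Fin m ⊕ Fin m) (Fin m ⊕ Fin m) F).toBlocks₁₁)ᵀ = 1 :=
    _root_.mul_eq_one_comm.1 h1
  have h4 := congrFun (congrFun h3 k) l
  rw [Matrix.mul_apply, Finset.sum_eq_single l] at h4
  · have h5 : ((A : Matrix (Fin m ⊕ Fin m) (Fin m ⊕ Fin m) F).toBlocks₁₁)ᵀ l l = 1 := hA.2.2 l
    rw [h5, mul_one, Matrix.one_apply] at h4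
    exact h4
  · intro j _ hj
    have h5 : ((A : Matrix (Fin m ⊕ Fin m) (Fin m ⊕ Fin m) F).toBlocks₁₁)ᵀ j l = 0 :=
      hA.2.1 l j (lt_of_le_of_ne (hl j) hj)
    rw [h5, mul_zero]
  · intro h
    exact absurd (Finset.mem_univ _) h

omit [Fintype F] in
theorem conj_entry (l : Fin m) (c : F) (A : Matrix.symplecticGroup (Fin m) F)
    (i j : Fin m ⊕ Fin m) :
    ((t (f l) c * A * (t (f l) c)⁻¹ : Matrix.symplecticGroup (Fin m) F) :
        Matrix (Fin m ⊕ Fin m) (Fin m ⊕ Fin m) F) i j =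
      (A : Matrix (Fin m ⊕ Fin m) (Fin m ⊕ Fin m) F) i j
        + (c * (Pi.single j (1 : F) : Fin m ⊕ Fin m → F) (Sum.inl l)) *
          (A : Matrix (Fin m ⊕ Fin m) (Fin m ⊕ Fin m) F) i (Sum.inr l)
        - c * ((A : Matrix (Fin m ⊕ Fin m) (Fin m ⊕ Fin m) F) (Sum.inl l) j
            + (c * (Pi.single j (1 : F) : Fin m ⊕ Fin m → F) (Sum.inl l)) *
              (A : Matrix (Fin m ⊕ Fin m) (Fin m ⊕ Fin m) F) (Sum.inl l) (Sum.inr l)) *
          (f l : Fin m ⊕ Fin m → F) i := by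
  have e1 : ∀ i', ((A : Matrix (Fin m ⊕ Fin m) (Fin m ⊕ Fin m) F) *ᵥ Pi.single j 1) i' =
      (A : Matrix (Fin m ⊕ Fin m) (Fin m ⊕ Fin m) F) i' j := fun i' => (entry_eq _ _ _).symm
  have e2 : ∀ i', ((A : Matrix (Fin m ⊕ Fin m) (Fin m ⊕ Fin m) F) *ᵥ f l) i' =
      (A : Matrix (Fin m ⊕ Fin m) (Fin m ⊕ Fin m) F) i' (Sum.inr l) :=
    fun i' => (entry_eq _ _ _).symm
  rw [entry_eq ((t (f l) c * A * (t (f l) c)⁻¹ : Matrix.symplecticGroup (Fin m) F) :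
        Matrix (Fin m ⊕ Fin m) (Fin m ⊕ Fin m) F) i j, t_inv, mul_mulVec, mul_mulVec]
  simp only [t_mulVec, form_f_right, Matrix.mulVec_add, Matrix.mulVec_smul, Pi.add_apply,
    Pi.smul_apply, smul_eq_mul, e1, e2]
  ring

/-- the elements of `U` whose `(e_l, f_l)` entry vanishes -/
def M2 (l : Fin m) (hl : ∀ k : Fin m, k ≤ l) : Submonoid (Matrix.symplecticGroup (Fin m) F) where
  carrier := {A | A ∈ U ∧
    (A : Matrix (Fin m ⊕ Fin m) (Fin m ⊕ Fin m) F) (Sum.inl l) (Sum.inr l) = 0}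
  mul_mem' := by
    intro A B hA hB
    refine ⟨U.mul_mem hA.1 hB.1, ?_⟩
    show ((A * B : Matrix.symplecticGroup (Fin m) F) :
      Matrix (Fin m ⊕ Fin m) (Fin m ⊕ Fin m) F) (Sum.inl l) (Sum.inr l) = 0
    rw [Submonoid.coe_mul, Matrix.mul_apply, Fintype.sum_sum_type]
    simp only [u2 hA.1 l hl, u3 hB.1 l hl]
    simp [hA.2, hB.2]
  one_mem' := by
    refine ⟨U.one_mem, ?_⟩
    show (1 : Matrix (Fin m ⊕ Fin m) (Fin m ⊕ Fin m) F) (Sum.inl l) (Sum.inr l) = 0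
    simp

theorem mem_M2 (l : Fin m) (hl : ∀ k : Fin m, k ≤ l) (A : Matrix.symplecticGroup (Fin m) F) :
    A ∈ M2 l hl ↔ A ∈ U ∧
      (A : Matrix (Fin m ⊕ Fin m) (Fin m ⊕ Fin m) F) (Sum.inl l) (Sum.inr l) = 0 := Iff.rfl

theorem R2S_le (l : Fin m) (hl : ∀ k : Fin m, k ≤ l) (hlm : (l : ℕ) + 1 = m)
    {x : Matrix.symplecticGroup (Fin m) F} (hx : x ∈ R2S m F) : x ∈ M2 l hl := by
  unfold R2S at hx
  induction hx using Subgroup.closure_induction with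
  | mem x hx =>
    obtain ⟨a, s, ha, hs, h0, rfl⟩ := hx
    refine ⟨mk_mem a s ha hs, ?_⟩
    have h3 := u3 (mk_mem a s ha hs) l hl
    show (s * (aᵀ)⁻¹) l l = 0
    rw [Matrix.mul_apply, Finset.sum_eq_single l]
    · rw [h0 l hlm, zero_mul]
    · intro k _ hk
      have h4 : (aᵀ)⁻¹ k l = 0 := by
        have h5 := h3 k
        rw [if_neg hk] at h5
        exact h5
      rw [h4, mul_zero]
    · intro h
      exact absurd (Finset.mem_univ _) h
  | one => exact (M2 l hl).one_mem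
  | mul x y _ _ hx hy => exact (M2 l hl).mul_mem hx hy
  | inv x _ hx =>
    have hpos : 0 < orderOf x := orderOf_pos x
    have h1 : x⁻¹ = x ^ (orderOf x - 1) := by
      apply inv_eq_of_mul_eq_one_right
      rw [← pow_succ', Nat.sub_add_cancel hpos, pow_orderOf_eq_one]
    rw [h1]
    exact (M2 l hl).pow_mem hx _

theorem M2_le (l : Fin m) (hl : ∀ k : Fin m, k ≤ l) (hlm : (l : ℕ) + 1 = m)
    {A : Matrix.symplecticGroup (Fin m) F} (hA : A ∈ M2 l hl) : A ∈ R2S m F := by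
  obtain ⟨hU, hβ⟩ := hA
  obtain ⟨a, s, ha, hs, rfl⟩ := exists_mk hU
  apply Subgroup.subset_closure
  refine ⟨a, s, ha, hs, ?_, rfl⟩
  intro i hi
  have hil : i = l := Fin.ext (by omega)
  subst hil
  have h3 := u3 (mk_mem a s ha hs) i hl
  have h2 : (s * (aᵀ)⁻¹) i i = 0 := hβ
  rw [Matrix.mul_apply, Finset.sum_eq_single i] at h2
  · have h4 : (aᵀ)⁻¹ i i = 1 := by
      have h5 := h3 i
      rw [if_pos rfl] at h5
      exact h5
    rw [h4, mul_one] at h2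
    exact h2
  · intro k _ hk
    have h4 : (aᵀ)⁻¹ k i = 0 := by
      have h5 := h3 k
      rw [if_neg hk] at h5
      exact h5
    rw [h4, mul_zero]
  · intro h
    exact absurd (Finset.mem_univ _) h

theorem conj_mem (l : Fin m) (hl : ∀ k : Fin m, k ≤ l) (c : F)
    {A : Matrix.symplecticGroup (Fin m) F} (hA : A ∈ M2 l hl) :
    t (f l) c * A * (t (f l) c)⁻¹ ∈ M2 l hl := by
  obtain ⟨hU, hβ⟩ := hA
  refine ⟨⟨?_, ?_, ?_⟩, ?_⟩
  · ext i k
    show ((t (f l) c * A * (t (f l) c)⁻¹ : Matrix.symplecticGroup (Fin m) F) :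
        Matrix (Fin m ⊕ Fin m) (Fin m ⊕ Fin m) F) (Sum.inr i) (Sum.inl k) = 0
    rw [conj_entry, u1 hU, hβ, u2 hU l hl, u3 hU l hl i, f_apply_inr]
    by_cases hk : k = l
    · subst hk
      by_cases hi : i = k
      · subst hi; simp
      · simp [hi]
    · have hk' : ¬ l = k := fun h => hk h.symm
      simp [hk, hk']
  · intro i k hki
    show ((t (f l) c * A * (t (f l) c)⁻¹ : Matrix.symplecticGroup (Fin m) F) :
        Matrix (Fin m ⊕ Fin m) (Fin m ⊕ Fin m) F) (Sum.inl i) (Sum.inl k) = 0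
    have hk : k ≠ l := fun h => absurd (hl i) (not_le.2 (h ▸ hki))
    have hk' : ¬ l = k := fun h => hk h.symm
    have h0 : (A : Matrix (Fin m ⊕ Fin m) (Fin m ⊕ Fin m) F) (Sum.inl i) (Sum.inl k) = 0 :=
      hU.2.1 i k hki
    rw [conj_entry, h0, f_apply_inl]
    simp [hk']
  · intro i
    show ((t (f l) c * A * (t (f l) c)⁻¹ : Matrix.symplecticGroup (Fin m) F) :
        Matrix (Fin m ⊕ Fin m) (Fin m ⊕ Fin m) F) (Sum.inl i) (Sum.inl i) = 1
    have h0 : (A : Matrix (Fin m ⊕ Fin m) (Fin m ⊕ Fin m) F) (Sum.inl i) (Sum.inl i) = 1 :=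
      hU.2.2 i
    rw [conj_entry, h0, f_apply_inl]
    by_cases hi : i = l
    · subst hi
      simp [hβ]
    · have hi' : ¬ l = i := fun h => hi h.symm
      simp [hi']
  · show ((t (f l) c * A * (t (f l) c)⁻¹ : Matrix.symplecticGroup (Fin m) F) :
        Matrix (Fin m ⊕ Fin m) (Fin m ⊕ Fin m) F) (Sum.inl l) (Sum.inr l) = 0
    rw [conj_entry, hβ, f_apply_inl]
    simp

theorem main : Cfsg.Agent.Lib.Helper52.SpStmt.R2Opp.{u} := by
  intro m F _ _ p _ _ hm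
  have hlt : m - 1 < m := by omega
  have hl : ∀ k : Fin m, k ≤ (⟨m - 1, hlt⟩ : Fin m) := by
    intro k
    rw [Fin.le_def]
    have := k.2
    show (k : ℕ) ≤ m - 1
    omega
  have hlm : ((⟨m - 1, hlt⟩ : Fin m) : ℕ) + 1 = m := by
    show m - 1 + 1 = m
    omega
  generalize (⟨m - 1, hlt⟩ : Fin m) = l at hl hlm
  have key : ∀ (c : F) (h : Cfsg.PSp m F), h ∈ R2 m F →
      pr (t (f l) c) * h * (pr (t (f l) c))⁻¹ ∈ R2 m F := by
    rintro c _ ⟨A, hA, rfl⟩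
    refine ⟨t (f l) c * A * (t (f l) c)⁻¹,
      M2_le l hl hlm (conj_mem l hl c (R2S_le l hl hlm hA)), ?_⟩
    rw [map_mul, map_mul, map_inv]
  refine ⟨pr (t (f l) 1), ?_, ?_⟩
  · rw [Subgroup.mem_normalizer_iff]
    intro h
    constructor
    · exact key 1 h
    · intro hh
      have h1 := key (-1) _ hh
      have hinv : pr (t (f l) (-1 : F)) = (pr (t (f l) (1 : F)))⁻¹ := by
        rw [← map_inv, t_inv]
      rw [hinv] at h1
      have h2 : (pr (t (f l) (1 : F)))⁻¹ * (pr (t (f l) 1) * h * (pr (t (f l) (1 : F)))⁻¹) *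
          (pr (t (f l) (1 : F)))⁻¹⁻¹ = h := by
        group
      rw [h2] at h1
      exact h1
  · rintro _ ⟨A, hA, rfl⟩ hx
    obtain ⟨B, hB, hBeq⟩ := hx
    have h1 : pr (t (f l) 1 * A * (t (f l) 1)⁻¹) = pr B := by
      rw [hBeq, map_mul, map_mul, map_inv]
    obtain ⟨a, -, h2⟩ := exists_scalar_of_pr_eq hm h1
    have h3 := congrFun (congrFun h2 (Sum.inr l)) (Sum.inl l)
    rw [conj_entry, Matrix.smul_apply, u1 hB, smul_zero, u1 hA, u2 hA l hl, u3 hA l hl,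
      f_apply_inr] at h3
    refine ⟨A, M2_le l hl hlm ⟨hA, ?_⟩, rfl⟩
    simpa using h3

end Cfsg.Agent.Lib.Helper48.SpR2O
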