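import Mathlib
import Cfsg.Prelude.Def_LocalStructure
import Cfsg.Agent.Lib.Helper46.Amalgam

/-!
helper48: interface for S2856 / S2857 (rank-two amalgams with strongly `p`-embedded residues:
`O^p(L_λ)` does not centralize `V_λ^{(n)} / [V_λ^{(n)}, Q_λ]`, resp. `V_λ^{(n)} / V_λ^{(n-2)}`).

Proof.  Let `μ` be a neighbour of `λ`, `A = G_λ`, `B = G_μ`, `V = V_λ^{(n)}`, `U = V_μ^{(n-1)} ≤ V`,
`R = O^p(O^{p'}(A))`.  `V` is the `A`-closure of `U` (`Ball`), and `A = R (A ∩ B)` (`Frat`,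
`SylClos`, `Res`; the normalizer of a Sylow subgroup of `A ∩ B` in `A` lies in `B`: `NHyp`), so
`V ≤ U [V, R]` (`Clos`).  If `[V, R] ≤ [V, Q_λ]` then `V = U [V, Q_λ]`, so `V = U` (`Nil`); if
`[V, R] ≤ V_λ^{(n-2)} ≤ U` then `V = U` as well.  Now `V = U` is normalized by `A` and `B`
(`Eqv`), so it is normal in `⟨A, B⟩ = X` and contained in `Q_λ ≤ A ∩ B`: `V = 1`, against
`Z_λ ≠ 1` (`ZNe`).  All pieces are independent of each other.
-/

set_option autoImplicit false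

namespace Cfsg.Agent.Lib.Helper48.AmStmt

open Cfsg Cfsg.Agent.Lib.Helper46.Amalgam Cfsg.Agent.Lib.Helper46.PCore

universe u

/-- `O^p(O^{p'}(A))` as a subgroup of the ambient group. -/
def resid {X : Type u} [Group X] (p : ℕ) (A : Subgroup X) : Subgroup X :=
  (Cfsg.pResidual p ↥(Cfsg.pElementClosure p A)).map (Cfsg.pElementClosure p A).subtype

/-! ### pure group theory -/

/-- FRAT (Frattini argument): `A = O^{p'}(A) N_A(T)` for a Sylow `p`-subgroup `T` of the finite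
subgroup `A` (`pElementClosure p A` is normal in `A` and contains `T`; `IsSyl.conj`). -/
def Frat : Prop :=
  ∀ {X : Type u} [Group X] (p : ℕ) [Fact p.Prime] (A T : Subgroup X), Finite A → IsSyl p T A →
    A ≤ Cfsg.pElementClosure p A ⊔ (A ⊓ Subgroup.normalizer (T : Set X))

/-- SYLCLOS: `O^{p'}(A) ≤ A`, and a Sylow `p`-subgroup of the finite subgroup `A` is a Sylow
`p`-subgroup of `O^{p'}(A)` (its elements have `p`-power order). -/
def SylClos : Prop :=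
  ∀ {X : Type u} [Group X] (p : ℕ) [Fact p.Prime] (A T : Subgroup X), Finite A → IsSyl p T A →
    Cfsg.pElementClosure p A ≤ A ∧ IsSyl p T (Cfsg.pElementClosure p A)

/-- RES: `L = O^p(L) T` for a Sylow `p`-subgroup `T` of the finite subgroup `L`
(`L / O^p(L)` is a `p`-group: the index of `O^p(L) T` divides a power of `p` and `|L : T|`). -/
def Res : Prop :=
  ∀ {X : Type u} [Group X] (p : ℕ) [Fact p.Prime] (L T : Subgroup X), Finite L → IsSyl p T L →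
    L ≤ (Cfsg.pResidual p ↥L).map L.subtype ⊔ T

/-- NORMR: `O^p(O^{p'}(A))` lies in `A` and is normalized by `A`. -/
def NormR : Prop :=
  ∀ {X : Type u} [Group X] (p : ℕ) (A : Subgroup X),
    resid p A ≤ A ∧ A ≤ Subgroup.normalizer (resid p A : Set X)

/-- CLOS: if `V` lies in every `A`-invariant subgroup containing `U` and `A = R (A ∩ B)` with
`A ∩ B` normalizing `U`, then `V ≤ U [V, R]` (`U ⊔ ⁅V, R⁆` is normalized by `R` and `A ∩ B`). -/
def Clos : Prop :=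
  ∀ {X : Type u} [Group X] (A B U V R : Subgroup X),
    U ≤ V → A ≤ Subgroup.normalizer (V : Set X) → A ⊓ B ≤ Subgroup.normalizer (U : Set X) →
    R ≤ A → A ≤ Subgroup.normalizer (R : Set X) → A ≤ R ⊔ (A ⊓ B) →
    (∀ N : Subgroup X, U ≤ N → A ≤ Subgroup.normalizer (N : Set X) → V ≤ N) →
    V ≤ U ⊔ ⁅V, R⁆

/-- NIL: in a finite `p`-group `Q` normalizing `U ≤ V ≤ Q`: `V ≤ U [V, Q]` implies `V ≤ U`. -/
def Nil : Prop :=
  ∀ {X : Type u} [Group X] (p : ℕ) [Fact p.Prime] (Q U V : Subgroup X), Finite Q →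
    IsPGroup p Q → V ≤ Q → U ≤ V → Q ≤ Subgroup.normalizer (V : Set X) →
    Q ≤ Subgroup.normalizer (U : Set X) → V ≤ U ⊔ ⁅V, Q⁆ → V ≤ U

/-- ZCEN: for a characteristic `p` edge `(A, B)`, `Z_A` lies in every `A`-invariant subgroup
containing `Z_B` (a Sylow subgroup of `A ∩ B` is Sylow in both; `IsSyl.conj`, `omegaZ_map_conj`). -/
def ZCen : Prop :=
  ∀ {X : Type u} [Group X] (p : ℕ) [Fact p.Prime] (A B : Subgroup X), CharPEdge p A B →
    ∀ N : Subgroup X, Cfsg.sylowCenterClosure p B ≤ N → A ≤ Subgroup.normalizer (N : Set X) →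
      Cfsg.sylowCenterClosure p A ≤ N

/-! ### the coset graph -/

/-- EQV: `V_{gδ}^{(n)} = g V_δ^{(n)} g⁻¹`. -/
def Eqv : Prop :=
  ∀ {X : Type u} [Group X] (p : ℕ) (M₁ M₂ : Subgroup X) (n : ℕ) (δ : Cfsg.CosetVertex M₁ M₂)
    (g : X), Cfsg.vertexVIter p M₁ M₂ n (g • δ) =
      (Cfsg.vertexVIter p M₁ M₂ n δ).map (MulAut.conj g).toMonoidHom

/-- BALL: for adjacent `λ, μ`, `V_λ^{(k+1)}` lies in every `G_λ`-invariant subgroup containing
`V_μ^{(k)}`. -/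
def Ball : Prop :=
  ∀ {X : Type u} [Group X] (p : ℕ) [Fact p.Prime] (M₁ M₂ : Subgroup X),
    Cfsg.IsCharPAmalgamPair p M₁ M₂ →
    ∀ (lam mu : Cfsg.CosetVertex M₁ M₂), (Cfsg.cosetGraph M₁ M₂).Adj lam mu → ∀ (k : ℕ),
    ∀ N : Subgroup X, Cfsg.vertexVIter p M₁ M₂ k mu ≤ N →
      MulAction.stabilizer X lam ≤ Subgroup.normalizer (N : Set X) →
      Cfsg.vertexVIter p M₁ M₂ (k + 1) lam ≤ N

/-- MONO: for adjacent `λ, μ`: `V_μ^{(k)} ≤ V_λ^{(k+1)}`. -/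
def Mono : Prop :=
  ∀ {X : Type u} [Group X] (p : ℕ) (M₁ M₂ : Subgroup X), M₁ ⊔ M₂ = ⊤ →
    ∀ (lam mu : Cfsg.CosetVertex M₁ M₂), (Cfsg.cosetGraph M₁ M₂).Adj lam mu → ∀ (k : ℕ),
      Cfsg.vertexVIter p M₁ M₂ k mu ≤ Cfsg.vertexVIter p M₁ M₂ (k + 1) lam

/-- ZNE: `Z_δ ≠ 1`. -/
def ZNe : Prop :=
  ∀ {X : Type u} [Group X] (p : ℕ) [Fact p.Prime] (M₁ M₂ : Subgroup X),
    Cfsg.IsCharPAmalgamPair p M₁ M₂ → ∀ δ : Cfsg.CosetVertex M₁ M₂, Cfsg.vertexZ p δ ≠ ⊥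

/-- NHYP: for adjacent `λ, μ` and a Sylow `p`-subgroup `T` of `G_λ ∩ G_μ`: `N_{G_λ}(T) ≤ G_μ`. -/
def NHyp : Prop :=
  ∀ {X : Type u} [Group X] (p : ℕ) [Fact p.Prime] (M₁ M₂ : Subgroup X),
    Cfsg.IsSpeAmalgamPair p M₁ M₂ →
    ∀ (lam mu : Cfsg.CosetVertex M₁ M₂), (Cfsg.cosetGraph M₁ M₂).Adj lam mu →
    ∀ T : Subgroup X, IsSyl p T (MulAction.stabilizer X lam ⊓ MulAction.stabilizer X mu) →
      MulAction.stabilizer X lam ⊓ Subgroup.normalizer (T : Set X) ≤ MulAction.stabilizer X mu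

/-! ### assembly -/

theorem le_normalizer_of_map_conj {X : Type u} [Group X] (A V : Subgroup X)
    (h : ∀ g ∈ A, V.map (MulAut.conj g).toMonoidHom = V) :
    A ≤ Subgroup.normalizer (V : Set X) := by
  intro g hg
  rw [Subgroup.mem_normalizer_iff]
  intro x
  constructor
  · intro hx
    rw [← h g hg]
    exact ⟨x, hx, rfl⟩
  · intro hx
    have h1 := h g⁻¹ (A.inv_mem hg)
    rw [← h1]
    refine ⟨g * x * g⁻¹, hx, ?_⟩
    simp only [MulEquiv.coe_toMonoidHom, MulAut.conj_apply]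
    group

/-- the stabilizer of a vertex normalizes `V^{(n)}` -/
theorem stab_le_normalizer (hEqv : Eqv.{u}) {X : Type u} [Group X] (p : ℕ) (M₁ M₂ : Subgroup X)
    (n : ℕ) (δ : Cfsg.CosetVertex M₁ M₂) :
    MulAction.stabilizer X δ ≤
      Subgroup.normalizer (Cfsg.vertexVIter p M₁ M₂ n δ : Set X) := by
  apply le_normalizer_of_map_conj
  intro g hg
  have h1 := hEqv p M₁ M₂ n δ g
  rw [MulAction.mem_stabilizer_iff.mp hg] at h1
  exact h1.symm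

/-- `V ≤ U [V, R]` at a characteristic `p` edge. -/
theorem core_le (hFrat : Frat.{u}) (hSyl : SylClos.{u}) (hRes : Res.{u}) (hNormR : NormR.{u})
    (hClos : Clos.{u}) {X : Type u} [Group X] (p : ℕ) [Fact p.Prime] (A B U V : Subgroup X)
    (hE : CharPEdge p A B)
    (hN : ∀ T : Subgroup X, IsSyl p T (A ⊓ B) → A ⊓ Subgroup.normalizer (T : Set X) ≤ B)
    (hUV : U ≤ V) (hAV : A ≤ Subgroup.normalizer (V : Set X))
    (hBU : B ≤ Subgroup.normalizer (U : Set X))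
    (hcl : ∀ N : Subgroup X, U ≤ N → A ≤ Subgroup.normalizer (N : Set X) → V ≤ N) :
    V ≤ U ⊔ ⁅V, resid p A⁆ := by
  have hfA : Finite A := hE.1
  obtain ⟨T, hT⟩ := exists_isSyl p (A ⊓ B)
  have hTA : IsSyl p T A := (hE.2.2.1 T hT).1
  have h1 := hFrat p A T hfA hTA
  obtain ⟨hLA, hTL⟩ := hSyl p A T hfA hTA
  have hfL : Finite (Cfsg.pElementClosure p A) :=
    Finite.of_injective (Subgroup.inclusion hLA) (Subgroup.inclusion_injective hLA)
  have h2 := hRes p (Cfsg.pElementClosure p A) T hfL hTL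
  have h3 : A ≤ resid p A ⊔ (A ⊓ B) := by
    refine h1.trans (sup_le (h2.trans (sup_le le_sup_left (le_sup_of_le_right hT.1))) ?_)
    exact le_sup_of_le_right (le_inf inf_le_left (hN T hT))
  obtain ⟨hRA, hAR⟩ := hNormR p A
  exact hClos A B U V (resid p A) hUV hAV (inf_le_right.trans hBU) hRA hAR h3 hcl

/-- a `p`-subgroup of `O_p(A)` normalized by `A` and `B` is trivial -/
theorem fin_bot {X : Type u} [Group X] (p : ℕ) [Fact p.Prime] (A B V : Subgroup X)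
    (hE : CharPEdge p A B) (hVQ : V ≤ Cfsg.pCoreOf p A)
    (hAV : A ≤ Subgroup.normalizer (V : Set X)) (hBV : B ≤ Subgroup.normalizer (V : Set X)) :
    V = ⊥ := by
  have htop : Subgroup.normalizer (V : Set X) = ⊤ := by
    rw [eq_top_iff, ← hE.2.2.2.2.2.1]
    exact sup_le hAV hBV
  have hnorm : V.Normal := Subgroup.normalizer_eq_top_iff.mp htop
  exact hE.2.2.2.2.2.2 V (hVQ.trans hE.pCoreOf_le_inf) hnorm

/-- the common end of both statements: `V_λ^{(k+1)} ≤ V_μ^{(k)}` is impossible inside `Q_λ`. -/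
theorem final (hEqv : Eqv.{u}) (hMono : Mono.{u}) (hZNe : ZNe.{u}) {X : Type u} [Group X]
    (p : ℕ) [Fact p.Prime] (M₁ M₂ : Subgroup X) (hC : Cfsg.IsCharPAmalgamPair p M₁ M₂)
    (lam mu : Cfsg.CosetVertex M₁ M₂) (hadj : (Cfsg.cosetGraph M₁ M₂).Adj lam mu) (k : ℕ)
    (hVQ : Cfsg.vertexVIter p M₁ M₂ (k + 1) lam ≤ Cfsg.vertexQ p lam)
    (hVU : Cfsg.vertexVIter p M₁ M₂ (k + 1) lam ≤ Cfsg.vertexVIter p M₁ M₂ k mu) : False := by
  have hE := charPEdge_of_adj hC hadj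
  have hUV := hMono p M₁ M₂ hC.1.1 lam mu hadj k
  have heq : Cfsg.vertexVIter p M₁ M₂ (k + 1) lam = Cfsg.vertexVIter p M₁ M₂ k mu :=
    le_antisymm hVU hUV
  have hAV := stab_le_normalizer hEqv p M₁ M₂ (k + 1) lam
  have hBV : MulAction.stabilizer X mu ≤
      Subgroup.normalizer (Cfsg.vertexVIter p M₁ M₂ (k + 1) lam : Set X) := by
    rw [heq]
    exact stab_le_normalizer hEqv p M₁ M₂ k mu
  have hbot := fin_bot p _ _ _ hE hVQ hAV hBV
  have hZ : Cfsg.vertexZ p lam ≤ Cfsg.vertexVIter p M₁ M₂ (k + 1) lam := by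
    unfold Cfsg.vertexVIter
    exact le_iSup (fun μ : {μ : Cfsg.CosetVertex M₁ M₂ //
      (Cfsg.cosetGraph M₁ M₂).dist lam μ ≤ k + 1} => Cfsg.vertexZ p (μ : Cfsg.CosetVertex M₁ M₂))
      ⟨lam, by rw [SimpleGraph.dist_self]; exact Nat.zero_le _⟩
  rw [hbot] at hZ
  exact hZNe p M₁ M₂ hC lam (le_bot_iff.mp hZ)

/-- S2856. -/
theorem main2856 (hFrat : Frat.{u}) (hSyl : SylClos.{u}) (hRes : Res.{u}) (hNormR : NormR.{u})
    (hClos : Clos.{u}) (hNil : Nil.{u}) (hEqv : Eqv.{u}) (hBall : Ball.{u}) (hMono : Mono.{u})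
    (hZNe : ZNe.{u}) (hNHyp : NHyp.{u})
    {X : Type u} [Group X] {p : ℕ} [Fact p.Prime] (M₁ M₂ : Subgroup X)
    (h : Cfsg.IsSpeAmalgamPair p M₁ M₂) (lam : Cfsg.CosetVertex M₁ M₂) (n : ℕ) (hn : 1 ≤ n)
    (V : Subgroup X) (hV : V = Cfsg.vertexVIter p M₁ M₂ n lam) (hVQ : V ≤ Cfsg.vertexQ p lam) :
    ¬ ⁅V, ((Cfsg.pResidual p ↥(Cfsg.pElementClosure p (MulAction.stabilizer X lam))).map
      (Cfsg.pElementClosure p (MulAction.stabilizer X lam)).subtype)⁆ ≤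
        ⁅V, Cfsg.vertexQ p lam⁆ := by
  intro hle
  have hC : Cfsg.IsCharPAmalgamPair p M₁ M₂ := h.1
  obtain ⟨mu, hadj⟩ := exists_adj M₁ M₂ lam
  obtain ⟨k, rfl⟩ : ∃ k, n = k + 1 := ⟨n - 1, by omega⟩
  subst hV
  have hE := charPEdge_of_adj hC hadj
  have hfA : Finite (MulAction.stabilizer X lam) := hE.1
  have hUV := hMono p M₁ M₂ hC.1.1 lam mu hadj k
  have hAV := stab_le_normalizer hEqv p M₁ M₂ (k + 1) lam
  have hBU := stab_le_normalizer hEqv p M₁ M₂ k mu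
  have h1 := core_le hFrat hSyl hRes hNormR hClos p _ _ _ _ hE (hNHyp p M₁ M₂ h lam mu hadj)
    hUV hAV hBU (hBall p M₁ M₂ hC lam mu hadj k)
  have h2 : Cfsg.vertexVIter p M₁ M₂ (k + 1) lam ≤
      Cfsg.vertexVIter p M₁ M₂ k mu ⊔
        ⁅Cfsg.vertexVIter p M₁ M₂ (k + 1) lam, Cfsg.pCoreOf p (MulAction.stabilizer X lam)⁆ :=
    h1.trans (sup_le le_sup_left (le_sup_of_le_right hle))
  have hQA : Cfsg.pCoreOf p (MulAction.stabilizer X lam) ≤ MulAction.stabilizer X lam :=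
    pCoreOf_le _
  have hfQ : Finite (Cfsg.pCoreOf p (MulAction.stabilizer X lam)) :=
    Finite.of_injective (Subgroup.inclusion hQA) (Subgroup.inclusion_injective hQA)
  have h3 := hNil p (Cfsg.pCoreOf p (MulAction.stabilizer X lam)) _ _ hfQ
    (pCoreOf_isPGroup _) hVQ hUV (hQA.trans hAV)
    ((hE.pCoreOf_le_inf.trans inf_le_right).trans hBU) h2
  exact final hEqv hMono hZNe p M₁ M₂ hC lam mu hadj k hVQ h3

/-- S2857. -/
theorem main2857 (hFrat : Frat.{u}) (hSyl : SylClos.{u}) (hRes : Res.{u}) (hNormR : NormR.{u})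
    (hClos : Clos.{u}) (hEqv : Eqv.{u}) (hBall : Ball.{u}) (hMono : Mono.{u})
    (hZNe : ZNe.{u}) (hNHyp : NHyp.{u})
    {X : Type u} [Group X] {p : ℕ} [Fact p.Prime] (M₁ M₂ : Subgroup X)
    (h : Cfsg.IsSpeAmalgamPair p M₁ M₂) (lam : Cfsg.CosetVertex M₁ M₂) (n : ℕ) (hn : 2 ≤ n)
    (hVQ : Cfsg.vertexVIter p M₁ M₂ n lam ≤ Cfsg.vertexQ p lam) :
    ¬ ⁅Cfsg.vertexVIter p M₁ M₂ n lam,
      ((Cfsg.pResidual p ↥(Cfsg.pElementClosure p (MulAction.stabilizer X lam))).map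
        (Cfsg.pElementClosure p (MulAction.stabilizer X lam)).subtype)⁆ ≤
        Cfsg.vertexVIter p M₁ M₂ (n - 2) lam := by
  intro hle
  have hC : Cfsg.IsCharPAmalgamPair p M₁ M₂ := h.1
  obtain ⟨mu, hadj⟩ := exists_adj M₁ M₂ lam
  obtain ⟨k, rfl⟩ : ∃ k, n = k + 2 := ⟨n - 2, by omega⟩
  rw [Nat.add_sub_cancel] at hle
  have hE := charPEdge_of_adj hC hadj
  have hUV := hMono p M₁ M₂ hC.1.1 lam mu hadj (k + 1)
  have hWU := hMono p M₁ M₂ hC.1.1 mu lam hadj.symm k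
  have hAV := stab_le_normalizer hEqv p M₁ M₂ (k + 1 + 1) lam
  have hBU := stab_le_normalizer hEqv p M₁ M₂ (k + 1) mu
  have h1 := core_le hFrat hSyl hRes hNormR hClos p _ _ _ _ hE (hNHyp p M₁ M₂ h lam mu hadj)
    hUV hAV hBU (hBall p M₁ M₂ hC lam mu hadj (k + 1))
  have h3 : Cfsg.vertexVIter p M₁ M₂ (k + 1 + 1) lam ≤ Cfsg.vertexVIter p M₁ M₂ (k + 1) mu :=
    h1.trans (sup_le le_rfl ((show _ ≤ _ from hle).trans hWU))
  exact final hEqv hMono hZNe p M₁ M₂ hC lam mu hadj (k + 1) hVQ h3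

end Cfsg.Agent.Lib.Helper48.AmStmt
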