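import Mathlib
import Cfsg.Agent.Lib.Helper48.AmStmt

/-!
helper48: S2856/CLOS — if `V` lies in every `A`-invariant subgroup containing `U`, and
`A = R (A ∩ B)` with `A ∩ B` normalizing `U`, then `V ≤ U [V, R]`.
-/

set_option autoImplicit false

namespace Cfsg.Agent.Lib.Helper48.AmCLOS

open Cfsg Cfsg.Agent.Lib.Helper48.AmStmt
open scoped commutatorElement

universe u

theorem le_normalizer_of_map_le {X : Type u} [Group X] (S N : Subgroup X)
    (h : ∀ g ∈ S, N.map (MulAut.conj g).toMonoidHom ≤ N) :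
    S ≤ Subgroup.normalizer (N : Set X) := by
  intro g hg
  rw [Subgroup.mem_normalizer_iff]
  intro x
  constructor
  · intro hx
    exact h g hg ⟨x, hx, rfl⟩
  · intro hx
    have h1 := h g⁻¹ (S.inv_mem hg) ⟨g * x * g⁻¹, hx, rfl⟩
    have h2 : (MulAut.conj g⁻¹).toMonoidHom (g * x * g⁻¹) = x := by
      simp only [MulEquiv.coe_toMonoidHom, MulAut.conj_apply]
      group
    rwa [h2] at h1

theorem map_le_of_le_normalizer {X : Type u} [Group X] (S N : Subgroup X)
    (h : S ≤ Subgroup.normalizer (N : Set X)) (g : X) (hg : g ∈ S) :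
    N.map (MulAut.conj g).toMonoidHom ≤ N := by
  rintro _ ⟨x, hx, rfl⟩
  exact (Subgroup.mem_normalizer_iff.mp (h hg) x).mp hx

theorem main : Clos.{u} := by
  intro X _ A B U V R hUV hAV hABU hRA hAR hA hcl
  apply hcl (U ⊔ ⁅V, R⁆) le_sup_left
  -- conjugation by elements of `A` preserves `⁅V, R⁆`
  have hcomm : ∀ g ∈ A, (⁅V, R⁆ : Subgroup X).map (MulAut.conj g).toMonoidHom ≤ ⁅V, R⁆ := by
    intro g hg
    rw [Subgroup.map_commutator]
    exact Subgroup.commutator_mono (map_le_of_le_normalizer A V hAV g hg)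
      (map_le_of_le_normalizer A R hAR g hg)
  have h1 : A ⊓ B ≤ Subgroup.normalizer ((U ⊔ ⁅V, R⁆ : Subgroup X) : Set X) := by
    apply le_normalizer_of_map_le
    intro g hg
    rw [Subgroup.map_sup]
    exact sup_le ((map_le_of_le_normalizer (A ⊓ B) U hABU g hg).trans le_sup_left)
      ((hcomm g hg.1).trans le_sup_right)
  have h2 : R ≤ Subgroup.normalizer ((U ⊔ ⁅V, R⁆ : Subgroup X) : Set X) := by
    apply le_normalizer_of_map_le
    intro g hg
    rw [Subgroup.map_sup]
    refine sup_le ?_ ((hcomm g (hRA hg)).trans le_sup_right)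
    rintro _ ⟨x, hx, rfl⟩
    have h3 : (MulAut.conj g).toMonoidHom x = ⁅g, x⁆ * x := by
      simp only [MulEquiv.coe_toMonoidHom, MulAut.conj_apply, commutatorElement_def]
      group
    rw [h3]
    have h4 : ⁅g, x⁆ ∈ (⁅V, R⁆ : Subgroup X) := by
      rw [Subgroup.commutator_comm]
      exact Subgroup.commutator_mem_commutator hg (hUV hx)
    exact Subgroup.mul_mem _ (Subgroup.mem_sup_right h4) (Subgroup.mem_sup_left hx)
  exact hA.trans (sup_le h2 h1)

end Cfsg.Agent.Lib.Helper48.AmCLOS
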