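import Mathlib
import Cfsg.Agent.Lib.Helper48.AmStmt

/-!
helper48: S2856/EQV — `V_{gδ}^{(n)} = g V_δ^{(n)} g⁻¹` on the coset graph.  Reusable:
`dist_smul` (the action preserves the graph distance), `sylowCenterClosure_map_conj`,
`vertexZ_smul`.
-/

set_option autoImplicit false

namespace Cfsg.Agent.Lib.Helper48.AmEQV

open Cfsg Cfsg.Agent.Lib.Helper48.AmStmt Cfsg.Agent.Lib.Helper46.Amalgam
  Cfsg.Agent.Lib.Helper46.PCore Cfsg.Agent.Lib.Helper46.CosetGraph

universe u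

/-- left translation as a graph homomorphism of the coset graph -/
def smulHom {X : Type u} [Group X] (M₁ M₂ : Subgroup X) (g : X) :
    Cfsg.cosetGraph M₁ M₂ →g Cfsg.cosetGraph M₁ M₂ where
  toFun := fun v => g • v
  map_rel' := fun h => smul_adj M₁ M₂ g h

theorem reachable_smul {X : Type u} [Group X] (M₁ M₂ : Subgroup X) (g : X)
    {a b : Cfsg.CosetVertex M₁ M₂} (h : (Cfsg.cosetGraph M₁ M₂).Reachable a b) :
    (Cfsg.cosetGraph M₁ M₂).Reachable (g • a) (g • b) :=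
  h.map (smulHom M₁ M₂ g)

theorem dist_smul_le {X : Type u} [Group X] (M₁ M₂ : Subgroup X) (g : X)
    {a b : Cfsg.CosetVertex M₁ M₂} (h : (Cfsg.cosetGraph M₁ M₂).Reachable a b) :
    (Cfsg.cosetGraph M₁ M₂).dist (g • a) (g • b) ≤ (Cfsg.cosetGraph M₁ M₂).dist a b := by
  obtain ⟨w, hw⟩ := h.exists_walk_length_eq_dist
  rw [← hw]
  have h1 := SimpleGraph.dist_le (w.map (smulHom M₁ M₂ g))
  rw [SimpleGraph.Walk.length_map] at h1
  exact h1

/-- the action of `X` on the coset graph preserves distances -/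
theorem dist_smul {X : Type u} [Group X] (M₁ M₂ : Subgroup X) (g : X)
    (a b : Cfsg.CosetVertex M₁ M₂) :
    (Cfsg.cosetGraph M₁ M₂).dist (g • a) (g • b) = (Cfsg.cosetGraph M₁ M₂).dist a b := by
  by_cases h : (Cfsg.cosetGraph M₁ M₂).Reachable a b
  · apply le_antisymm (dist_smul_le M₁ M₂ g h)
    have h1 := dist_smul_le M₁ M₂ g⁻¹ (reachable_smul M₁ M₂ g h)
    rwa [inv_smul_smul, inv_smul_smul] at h1
  · have h1 : ¬ (Cfsg.cosetGraph M₁ M₂).Reachable (g • a) (g • b) := by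
      intro h2
      apply h
      have h3 := reachable_smul M₁ M₂ g⁻¹ h2
      rwa [inv_smul_smul, inv_smul_smul] at h3
    rw [SimpleGraph.dist_eq_zero_of_not_reachable h, SimpleGraph.dist_eq_zero_of_not_reachable h1]

theorem sylowCenterClosure_map_conj_le {X : Type u} [Group X] (p : ℕ) (H : Subgroup X) (g : X) :
    (Cfsg.sylowCenterClosure p H).map (MulAut.conj g).toMonoidHom ≤
      Cfsg.sylowCenterClosure p (H.map (MulAut.conj g).toMonoidHom) := by
  unfold Cfsg.sylowCenterClosure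
  rw [Subgroup.map_iSup]
  apply iSup_le
  intro S
  rw [← omegaZ_map_conj]
  have h1 := (isSyl_of_sylow S).map_conj g
  obtain ⟨S₂, hS₂⟩ := h1.exists_sylow
  rw [← hS₂]
  exact le_iSup (fun S : Sylow p (H.map (MulAut.conj g).toMonoidHom) =>
    Cfsg.omegaOne p (((S : Subgroup (H.map (MulAut.conj g).toMonoidHom)).map
      (H.map (MulAut.conj g).toMonoidHom).subtype) ⊓
    Subgroup.centralizer (((S : Subgroup (H.map (MulAut.conj g).toMonoidHom)).map
      (H.map (MulAut.conj g).toMonoidHom).subtype : Subgroup X) : Set X))) S₂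

/-- `Z_{gHg⁻¹} = g Z_H g⁻¹` -/
theorem sylowCenterClosure_map_conj {X : Type u} [Group X] (p : ℕ) (H : Subgroup X) (g : X) :
    Cfsg.sylowCenterClosure p (H.map (MulAut.conj g).toMonoidHom) =
      (Cfsg.sylowCenterClosure p H).map (MulAut.conj g).toMonoidHom := by
  apply le_antisymm _ (sylowCenterClosure_map_conj_le p H g)
  have h1 := sylowCenterClosure_map_conj_le p (H.map (MulAut.conj g).toMonoidHom) g⁻¹
  rw [map_conj_map_conj_inv] at h1
  have h2 := Subgroup.map_mono (f := (MulAut.conj g).toMonoidHom) h1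
  rwa [map_conj_inv_map_conj] at h2

/-- `Z_{gδ} = g Z_δ g⁻¹` -/
theorem vertexZ_smul {X : Type u} [Group X] (p : ℕ) {M₁ M₂ : Subgroup X} (g : X)
    (δ : Cfsg.CosetVertex M₁ M₂) :
    Cfsg.vertexZ p (g • δ) = (Cfsg.vertexZ p δ).map (MulAut.conj g).toMonoidHom := by
  show Cfsg.sylowCenterClosure p (MulAction.stabilizer X (g • δ)) = _
  rw [MulAction.stabilizer_smul_eq_stabilizer_map_conj, sylowCenterClosure_map_conj]

theorem main : Eqv.{u} := by
  intro X _ p M₁ M₂ n δ g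
  unfold Cfsg.vertexVIter
  apply le_antisymm
  · apply iSup_le
    rintro ⟨ν, hν⟩
    have h1 : (Cfsg.cosetGraph M₁ M₂).dist δ (g⁻¹ • ν) ≤ n := by
      have h2 := dist_smul M₁ M₂ g δ (g⁻¹ • ν)
      rw [smul_inv_smul] at h2
      rw [← h2]
      exact hν
    have h3 : Cfsg.vertexZ p ν = (Cfsg.vertexZ p (g⁻¹ • ν)).map (MulAut.conj g).toMonoidHom := by
      rw [← vertexZ_smul, smul_inv_smul]
    show Cfsg.vertexZ p ν ≤ _
    rw [h3]
    exact Subgroup.map_mono (le_iSup (fun μ : {μ : Cfsg.CosetVertex M₁ M₂ //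
      (Cfsg.cosetGraph M₁ M₂).dist δ μ ≤ n} => Cfsg.vertexZ p (μ : Cfsg.CosetVertex M₁ M₂))
      ⟨g⁻¹ • ν, h1⟩)
  · rw [Subgroup.map_iSup]
    apply iSup_le
    rintro ⟨μ, hμ⟩
    have h1 : (Cfsg.cosetGraph M₁ M₂).dist (g • δ) (g • μ) ≤ n := by
      rw [dist_smul]
      exact hμ
    show (Cfsg.vertexZ p μ).map (MulAut.conj g).toMonoidHom ≤ _
    rw [← vertexZ_smul]
    exact le_iSup (fun μ : {μ : Cfsg.CosetVertex M₁ M₂ //
      (Cfsg.cosetGraph M₁ M₂).dist (g • δ) μ ≤ n} => Cfsg.vertexZ p (μ : Cfsg.CosetVertex M₁ M₂))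
      ⟨g • μ, h1⟩

end Cfsg.Agent.Lib.Helper48.AmEQV
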