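import Mathlib
import Cfsg.Agent.Lib.Helper48.AmStmt
import Cfsg.Agent.Lib.Helper48.AmCLOS

/-!
helper48: S2856/ZCEN — at a characteristic `p` edge `(A, B)`, `Z_A` lies in every `A`-invariant
subgroup containing `Z_B`.
-/

set_option autoImplicit false

namespace Cfsg.Agent.Lib.Helper48.AmZCEN

open Cfsg Cfsg.Agent.Lib.Helper48.AmStmt Cfsg.Agent.Lib.Helper46.Amalgam
  Cfsg.Agent.Lib.Helper46.PCore

universe u

theorem main : ZCen.{u} := by
  intro X _ p _ A B hE N hBN hAN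
  have hfA : Finite A := hE.1
  obtain ⟨T, hT⟩ := exists_isSyl p (A ⊓ B)
  obtain ⟨hTA, hTB⟩ := hE.2.2.1 T hT
  have h1 : Cfsg.omegaOne p (T ⊓ Subgroup.centralizer (T : Set X)) ≤ N :=
    (omegaZ_le_sylowCenterClosure hTB).trans hBN
  unfold Cfsg.sylowCenterClosure
  apply iSup_le
  intro S
  obtain ⟨k, hk, hkS⟩ := hTA.conj (isSyl_of_sylow S)
  rw [hkS, omegaZ_map_conj]
  exact (Subgroup.map_mono h1).trans
    (Cfsg.Agent.Lib.Helper48.AmCLOS.map_le_of_le_normalizer A N hAN k hk)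

end Cfsg.Agent.Lib.Helper48.AmZCEN
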