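import Mathlib
import Cfsg.Agent.Lib.Helper48.AmStmt
import Cfsg.Agent.Lib.Helper48.AmCLOS
import Cfsg.Agent.Lib.Helper48.AmEQV
import Cfsg.Agent.Lib.Helper48.AmZCEN

/-!
helper48: S2856/BALL — for adjacent `λ, μ`, `V_λ^{(k+1)}` lies in every `G_λ`-invariant subgroup
containing `V_μ^{(k)}` (`G_λ` is transitive on the neighbours of `λ`; `Z_λ` by `ZCen`).
-/

set_option autoImplicit false

namespace Cfsg.Agent.Lib.Helper48.AmBALL

open Cfsg Cfsg.Agent.Lib.Helper48.AmStmt Cfsg.Agent.Lib.Helper46.Amalgam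
  Cfsg.Agent.Lib.Helper46.PCore Cfsg.Agent.Lib.Helper46.CosetGraph

universe u

theorem main : Ball.{u} := by
  intro X _ p _ M₁ M₂ hC lam mu hadj k N hUN hAN
  have hconn := connected M₁ M₂ hC.1.1
  have hE := charPEdge_of_adj hC hadj
  -- `Z_ν ≤ N` for `ν` within distance `k` of `μ`
  have hmu : ∀ ν : Cfsg.CosetVertex M₁ M₂, (Cfsg.cosetGraph M₁ M₂).dist mu ν ≤ k →
      Cfsg.vertexZ p ν ≤ N := by
    intro ν hν
    refine le_trans ?_ hUN
    unfold Cfsg.vertexVIter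
    exact le_iSup (fun μ : {μ : Cfsg.CosetVertex M₁ M₂ //
      (Cfsg.cosetGraph M₁ M₂).dist mu μ ≤ k} => Cfsg.vertexZ p (μ : Cfsg.CosetVertex M₁ M₂))
      ⟨ν, hν⟩
  have hZmu : Cfsg.vertexZ p mu ≤ N :=
    hmu mu (by rw [SimpleGraph.dist_self]; exact Nat.zero_le _)
  have hZlam : Cfsg.vertexZ p lam ≤ N :=
    Cfsg.Agent.Lib.Helper48.AmZCEN.main p _ _ hE N hZmu hAN
  unfold Cfsg.vertexVIter
  apply iSup_le
  rintro ⟨ν, hν⟩
  show Cfsg.vertexZ p ν ≤ N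
  rcases Nat.eq_zero_or_pos ((Cfsg.cosetGraph M₁ M₂).dist lam ν) with h0 | hpos
  · rw [hconn.dist_eq_zero_iff] at h0
    rw [← h0]
    exact hZlam
  · obtain ⟨m, hm⟩ := Nat.exists_eq_succ_of_ne_zero hpos.ne'
    obtain ⟨w, hw, hwd⟩ := exists_adj_dist hconn hm
    obtain ⟨g, hg, hgw⟩ := stabilizer_transitive M₁ M₂ lam mu w hadj hw
    have h1 : (Cfsg.cosetGraph M₁ M₂).dist mu (g⁻¹ • ν) ≤ k := by
      have h2 := Cfsg.Agent.Lib.Helper48.AmEQV.dist_smul M₁ M₂ g mu (g⁻¹ • ν)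
      rw [smul_inv_smul, hgw, hwd] at h2
      rw [← h2]
      omega
    have h3 := hmu _ h1
    have h4 : Cfsg.vertexZ p ν =
        (Cfsg.vertexZ p (g⁻¹ • ν)).map (MulAut.conj g).toMonoidHom := by
      rw [← Cfsg.Agent.Lib.Helper48.AmEQV.vertexZ_smul, smul_inv_smul]
    rw [h4]
    exact (Subgroup.map_mono h3).trans
      (Cfsg.Agent.Lib.Helper48.AmCLOS.map_le_of_le_normalizer _ N hAN g hg)

end Cfsg.Agent.Lib.Helper48.AmBALL
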