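import Mathlib
import Cfsg.Agent.Lib.Helper48.AmStmt

/-!
helper48: S2856/MONO — for adjacent `λ, μ`: `V_μ^{(k)} ≤ V_λ^{(k+1)}` (triangle inequality in the
connected coset graph).
-/

set_option autoImplicit false

namespace Cfsg.Agent.Lib.Helper48.AmMONO

open Cfsg Cfsg.Agent.Lib.Helper48.AmStmt

universe u

theorem main : Mono.{u} := by
  intro X _ p M₁ M₂ hgen lam mu hadj k
  unfold Cfsg.vertexVIter
  apply iSup_le
  rintro ⟨ν, hν⟩
  have hconn := Cfsg.Agent.Lib.Helper46.CosetGraph.connected M₁ M₂ hgen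
  have h1 : (Cfsg.cosetGraph M₁ M₂).dist lam ν ≤ k + 1 := by
    have h3 := hconn.dist_triangle (u := lam) (v := mu) (w := ν)
    have h2 : (Cfsg.cosetGraph M₁ M₂).dist lam mu = 1 := SimpleGraph.dist_eq_one_iff_adj.mpr hadj
    omega
  exact le_iSup (fun μ : {μ : Cfsg.CosetVertex M₁ M₂ //
    (Cfsg.cosetGraph M₁ M₂).dist lam μ ≤ k + 1} => Cfsg.vertexZ p (μ : Cfsg.CosetVertex M₁ M₂))
    ⟨ν, h1⟩

end Cfsg.Agent.Lib.Helper48.AmMONO
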