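import Mathlib
import Cfsg.Agent.Lib.Helper48.AmStmt

/-!
helper48: S2856/NHYP — for adjacent `λ, μ` and a Sylow `p`-subgroup `T` of `G_λ ∩ G_μ`:
`N_{G_λ}(T) ≤ G_μ` (clause (2) of `IsSpeAmalgamPair`, transported by conjugation).
-/

set_option autoImplicit false

namespace Cfsg.Agent.Lib.Helper48.AmNHYP

open Cfsg Cfsg.Agent.Lib.Helper48.AmStmt Cfsg.Agent.Lib.Helper46.Amalgam
  Cfsg.Agent.Lib.Helper46.PCore

universe u

theorem base {X : Type u} [Group X] (p : ℕ) (M₁ M₂ : Subgroup X)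
    (h : Cfsg.IsSpeAmalgamPair p M₁ M₂) (T : Subgroup X) (hT : IsSyl p T (M₁ ⊓ M₂)) :
    M₁ ⊓ Subgroup.normalizer (T : Set X) ≤ M₂ ∧ M₂ ⊓ Subgroup.normalizer (T : Set X) ≤ M₁ := by
  obtain ⟨S, hS⟩ := hT.exists_sylow
  have h1 := h.2.1 S
  rw [hS] at h1
  constructor
  · exact h1.2.trans inf_le_right
  · rw [← h1.1]; exact h1.2.trans inf_le_left

theorem conj_le {X : Type u} [Group X] (p : ℕ) (A B : Subgroup X) (x : X) (T : Subgroup X)
    (hT : IsSyl p T (A.map (MulAut.conj x).toMonoidHom ⊓ B.map (MulAut.conj x).toMonoidHom))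
    (hb : ∀ T₀, IsSyl p T₀ (A ⊓ B) → A ⊓ Subgroup.normalizer (T₀ : Set X) ≤ B) :
    A.map (MulAut.conj x).toMonoidHom ⊓ Subgroup.normalizer (T : Set X) ≤
      B.map (MulAut.conj x).toMonoidHom := by
  have h1 := hT.map_conj x⁻¹
  rw [Subgroup.map_inf _ _ _ (MulAut.conj x⁻¹).injective, map_conj_map_conj_inv,
    map_conj_map_conj_inv] at h1
  have h2 := hb _ h1
  have h3 := Subgroup.map_mono (f := (MulAut.conj x).toMonoidHom) h2
  rw [Subgroup.map_inf _ _ _ (MulAut.conj x).injective, ← normalizer_map_conj,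
    map_conj_inv_map_conj] at h3
  exact h3

theorem main : NHyp.{u} := by
  intro X _ p _ M₁ M₂ h lam mu hadj T hT
  obtain ⟨x, ⟨h1, h2⟩ | ⟨h1, h2⟩⟩ := stabilizer_cases M₁ M₂ hadj
  · rw [h1, h2] at hT ⊢
    exact conj_le p M₁ M₂ x T hT (fun T₀ hT₀ => (base p M₁ M₂ h T₀ hT₀).1)
  · rw [h1, h2] at hT ⊢
    exact conj_le p M₂ M₁ x T hT
      (fun T₀ hT₀ => (base p M₁ M₂ h T₀ (by rwa [inf_comm] at hT₀)).2)

end Cfsg.Agent.Lib.Helper48.AmNHYP
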