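import Mathlib
import Cfsg.Agent.Lib.Helper48.AmStmt

/-!
helper48: S2856/ZNE — `Z_δ ≠ 1` in a characteristic `p` amalgam (the vertex stabilizer has order
divisible by `p`, so a Sylow `p`-subgroup is nontrivial and its centre has an element of order `p`).
-/

set_option autoImplicit false

namespace Cfsg.Agent.Lib.Helper48.AmZNE

open Cfsg Cfsg.Agent.Lib.Helper48.AmStmt Cfsg.Agent.Lib.Helper46.Amalgam
  Cfsg.Agent.Lib.Helper46.PCore

universe u

/-- `Ω₁(Z(T)) ≠ 1` for a nontrivial finite `p`-group `T`. -/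
theorem omegaZ_ne_bot {X : Type u} [Group X] (p : ℕ) [Fact p.Prime] (T : Subgroup X) [Finite T]
    (hT : IsPGroup p T) (hne : T ≠ ⊥) :
    Cfsg.omegaOne p (T ⊓ Subgroup.centralizer (T : Set X)) ≠ ⊥ := by
  have hnt : Nontrivial T := (Subgroup.nontrivial_iff_ne_bot T).mpr hne
  have hc : Nontrivial (Subgroup.center T) := IsPGroup.center_nontrivial hT
  have hcp : IsPGroup p (Subgroup.center T) := hT.to_subgroup _
  have hdvd : p ∣ Nat.card (Subgroup.center T) := by
    rcases hcp.card_eq_or_dvd with h1 | h1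
    · exfalso
      have := Finite.one_lt_card (α := Subgroup.center T)
      omega
    · exact h1
  obtain ⟨z, hz⟩ := exists_prime_orderOf_dvd_card' p hdvd
  intro hbot
  have hw : ((z : T) : X) ∈ Cfsg.omegaOne p (T ⊓ Subgroup.centralizer (T : Set X)) := by
    unfold Cfsg.omegaOne
    apply Subgroup.subset_closure
    refine ⟨Subgroup.mem_inf.mpr ⟨(z : T).2, ?_⟩, ?_⟩
    · rw [Subgroup.mem_centralizer_iff]
      intro t ht
      have h1 := Subgroup.mem_center_iff.mp z.2 ⟨t, ht⟩
      exact congrArg Subtype.val h1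
    · have h1 : z ^ p = 1 := by rw [← hz]; exact pow_orderOf_eq_one z
      have h2 := congrArg (fun y : Subgroup.center T => ((y : T) : X)) h1
      simpa using h2
  rw [hbot, Subgroup.mem_bot] at hw
  have hz1 : z = 1 := by
    apply Subtype.ext
    apply Subtype.ext
    simpa using hw
  rw [hz1, orderOf_one] at hz
  exact (Fact.out : p.Prime).one_lt.ne hz

theorem main : ZNe.{u} := by
  intro X _ p _ M₁ M₂ hC δ hbot
  obtain ⟨μ, hadj⟩ := exists_adj M₁ M₂ δ
  have hE := charPEdge_of_adj hC hadj
  have hfin : Finite (MulAction.stabilizer X δ) := hE.1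
  -- `p` divides the order of the stabilizer
  have hdvd : p ∣ Nat.card (MulAction.stabilizer X δ) := by
    obtain ⟨x, ⟨h1, -⟩ | ⟨h1, -⟩⟩ := stabilizer_cases M₁ M₂ hadj
    · rw [h1, Subgroup.card_map_of_injective (MulAut.conj x).injective]
      exact hC.2.2.2.1
    · rw [h1, Subgroup.card_map_of_injective (MulAut.conj x).injective]
      exact hC.2.2.2.2.1
  let S : Sylow p (MulAction.stabilizer X δ) := default
  have hS := isSyl_of_sylow S
  have hSne : (S : Subgroup (MulAction.stabilizer X δ)) ≠ ⊥ := S.ne_bot_of_dvd_card hdvd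
  have hTne : (S : Subgroup (MulAction.stabilizer X δ)).map
      (MulAction.stabilizer X δ).subtype ≠ ⊥ := by
    intro h
    apply hSne
    rw [Subgroup.map_eq_bot_iff_of_injective _ (Subgroup.subtype_injective _)] at h
    exact h
  have hfT : Finite ((S : Subgroup (MulAction.stabilizer X δ)).map
      (MulAction.stabilizer X δ).subtype) :=
    Finite.of_injective (Subgroup.inclusion hS.1) (Subgroup.inclusion_injective hS.1)
  have h1 := omegaZ_ne_bot p _ hS.2.1 hTne
  have h2 := omegaZ_le_sylowCenterClosure hS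
  apply h1
  rw [← le_bot_iff]
  refine h2.trans ?_
  rw [le_bot_iff]
  exact hbot

end Cfsg.Agent.Lib.Helper48.AmZNE
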