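import Mathlib
import Cfsg.Agent.Lib.Helper16.BRStmt2

set_option autoImplicit false

/-! Piece [ARITHF] of S0996. -/

namespace Cfsg.Agent.Lib.Helper48.BGARITHF

theorem main : Cfsg.Agent.Lib.Helper16.BRStmt2.ArithF := by
  intro p u n hp hu hun hn hdvd
  by_contra hne
  have hlt : u < n := lt_of_le_of_ne hun hne
  obtain ⟨k, hk⟩ := hdvd
  have hp1 : ((p - 1 : ℕ) : ℤ) = (p : ℤ) - 1 := by
    have : 1 ≤ p := by omega
    push_cast [Nat.cast_sub this]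
    ring
  have hkZ : ((p : ℤ) - 1) * (1 + (n : ℤ) * p) = (1 + (u : ℤ) * p) * k := by
    have := congrArg (fun x : ℕ => (x : ℤ)) hk
    simp only [Nat.cast_mul, Nat.cast_add, Nat.cast_one] at this
    rw [hp1] at this
    exact this
  have hD : (1 + (u : ℤ) * p) ∣ ((u : ℤ) + 1) * ((n : ℤ) - u) := by
    refine ⟨(u : ℤ) ^ 2 * k - (n : ℤ) * (1 + (u : ℤ) * p) + ((n : ℤ) - u) + (1 + (u : ℤ)) * n, ?_⟩
    have e : ((u : ℤ) + 1) * ((n : ℤ) - u) =
        (u : ℤ) ^ 2 * (((p : ℤ) - 1) * (1 + (n : ℤ) * p)) -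
          (1 + (u : ℤ) * p) * ((n : ℤ) * (1 + (u : ℤ) * p) - ((n : ℤ) - u) - (1 + (u : ℤ)) * n) := by
      ring
    rw [e, hkZ]
    ring
  have hpos : (0 : ℤ) < ((u : ℤ) + 1) * ((n : ℤ) - u) := by
    have h1 : (0 : ℤ) < (u : ℤ) + 1 := by positivity
    have h2 : (0 : ℤ) < (n : ℤ) - u := by
      have : (u : ℤ) < n := by exact_mod_cast hlt
      linarith
    exact mul_pos h1 h2
  have hle := Int.le_of_dvd hpos hD
  have hu' : (1 : ℤ) ≤ u := by exact_mod_cast hu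
  have hn' : 2 * (n : ℤ) ≤ p + 1 := by exact_mod_cast hn
  have hp' : (3 : ℤ) ≤ p := by exact_mod_cast hp
  nlinarith [mul_nonneg (sub_nonneg.2 hu') (by linarith : (0 : ℤ) ≤ p),
    mul_le_mul_of_nonneg_left hn' (by linarith : (0 : ℤ) ≤ (u : ℤ) + 1), sq_nonneg (u : ℤ)]

end Cfsg.Agent.Lib.Helper48.BGARITHF
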