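import Mathlib
import Cfsg.Agent.Lib.Helper16.BRStmt2

set_option autoImplicit false

/-! Piece [ARITHG] of S0996. -/

namespace Cfsg.Agent.Lib.Helper48.BGARITHG

theorem main : Cfsg.Agent.Lib.Helper16.BRStmt2.ArithG := by
  intro p u n hp hu hun hn hdvd
  obtain ⟨k, hk⟩ := hdvd
  have hup : 1 ≤ u * p := by nlinarith
  have hp1 : ((p - 1 : ℕ) : ℤ) = (p : ℤ) - 1 := by
    have : 1 ≤ p := by omega
    push_cast [Nat.cast_sub this]
    ring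
  have hD1 : ((u * p - 1 : ℕ) : ℤ) = (u : ℤ) * p - 1 := by
    push_cast [Nat.cast_sub hup]
    ring
  have hkZ : ((p : ℤ) - 1) * (1 + (n : ℤ) * p) = ((u : ℤ) * p - 1) * k := by
    have := congrArg (fun x : ℕ => (x : ℤ)) hk
    simp only [Nat.cast_mul, Nat.cast_add, Nat.cast_one] at this
    rw [hp1, hD1] at this
    exact this
  have hD : ((u : ℤ) * p - 1) ∣ ((u : ℤ) - 1) * ((u : ℤ) + n) := by
    refine ⟨(n : ℤ) * ((u : ℤ) * p - 1) + ((u : ℤ) + n) - ((u : ℤ) - 1) * n - (u : ℤ) ^ 2 * k, ?_⟩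
    have e : ((u : ℤ) - 1) * ((u : ℤ) + n) =
        ((u : ℤ) * p - 1) * ((n : ℤ) * ((u : ℤ) * p - 1) + ((u : ℤ) + n) - ((u : ℤ) - 1) * n) -
          (u : ℤ) ^ 2 * (((p : ℤ) - 1) * (1 + (n : ℤ) * p)) := by
      ring
    rw [e, hkZ]
    ring
  have hu' : (2 : ℤ) ≤ u := by exact_mod_cast hu
  have hun' : (u : ℤ) ≤ n := by exact_mod_cast hun
  have hn' : 2 * (n : ℤ) ≤ p + 1 := by exact_mod_cast hn
  have hp' : (3 : ℤ) ≤ p := by exact_mod_cast hp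
  have hpos : (0 : ℤ) < ((u : ℤ) - 1) * ((u : ℤ) + n) := by
    have h1 : (0 : ℤ) < (u : ℤ) - 1 := by linarith
    have h2 : (0 : ℤ) < (u : ℤ) + n := by linarith
    exact mul_pos h1 h2
  have hle := Int.le_of_dvd hpos hD
  -- (u-1)(u+n) ≤ (u-1) * 2n ≤ (u-1)(p+1)
  have h3 : ((u : ℤ) - 1) * ((u : ℤ) + n) ≤ ((u : ℤ) - 1) * ((p : ℤ) + 1) := by
    apply mul_le_mul_of_nonneg_left _ (by linarith)
    linarith
  nlinarith

end Cfsg.Agent.Lib.Helper48.BGARITHG
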