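import Mathlib
import Cfsg.Prelude.Def_Blocks
import Cfsg.Agent.Lib.Helper16.IndBlock2

/-!
# The induced central character of a member of `b` on the block idempotent of `b^G`

Piece (W1) of S4442: if `b^G = B` for a block `b` of the subgroup `C`, then for `θ ∈ b`
the sum over `c ∈ C` of `blockCoeff B c * θ c / θ 1` is `1` modulo the local ideal.
-/

set_option autoImplicit false

namespace Cfsg.Agent.Lib.Helper48.BrOmega

open Cfsg Cfsg.Agent.Lib.Helper77.LocalRing Cfsg.Agent.Lib.Helper77.CentralChar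
  Cfsg.Agent.Lib.Helper77.ClassSum Cfsg.Agent.Lib.Helper77.BlockIdem
  Cfsg.Agent.Lib.CT.Wedderburn Cfsg.Agent.Lib.Helper16.ZR Cfsg.Agent.Lib.Helper33.Conj
  Cfsg.Agent.Lib.Helper16.MinMax Cfsg.Agent.Lib.Helper16.IndBlock
  Cfsg.Agent.Lib.Helper16.IndBlock2
open Cfsg.Agent.Lib.Helper16.CentralChar (conjFinset mem_conjFinset card_conjFinset)

universe u

/-- Sum over class representatives of `blockCoeff B r` times the induced central character
equals the sum over the subgroup. -/
theorem sum_reps_eq {G : Type u} [Group G] [Fintype G] (C : Subgroup G)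
    (B : Set (IrrCharacter G)) (θ : ↥C → ℂ) (R : Finset G)
    (hR : ∀ f : G → ℂ, ∑ x, f x = ∑ r ∈ R, ∑ x ∈ conjFinset r, f x) :
    ∑ r ∈ R, blockCoeff B r * inducedCentralChar C θ r
      = ∑ᶠ c : ↥C, blockCoeff B (c : G) * θ c / θ 1 := by
  classical
  rw [finsum_eq_sum_of_fintype]
  obtain ⟨f, hf⟩ : ∃ f : G → ℂ, f = fun x =>
      if hx : x ∈ C then blockCoeff B x * θ ⟨x, hx⟩ / θ 1 else 0 := ⟨_, rfl⟩
  have hfin : ∀ c : ↥C, f (c : G) = blockCoeff B (c : G) * θ c / θ 1 := by
    intro c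
    rw [hf]
    simp only [c.2, dif_pos]
  have hfout : ∀ x : G, x ∉ C → f x = 0 := by
    intro x hx
    rw [hf]
    simp only [hx, dif_neg, not_false_eq_true]
  have e1 : ∑ c : ↥C, blockCoeff B (c : G) * θ c / θ 1 = ∑ x : G, f x := by
    rw [← Finset.sum_subset (Finset.subset_univ
      ((Finset.univ : Finset ↥C).map (Function.Embedding.subtype _)))]
    · rw [Finset.sum_map]
      apply Finset.sum_congr rfl
      intro c _
      exact (hfin c).symm
    · intro x _ hx
      apply hfout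
      intro h
      exact hx (Finset.mem_map.mpr ⟨⟨x, h⟩, Finset.mem_univ _, rfl⟩)
  rw [e1, hR]
  apply Finset.sum_congr rfl
  intro r _
  unfold inducedCentralChar
  rw [Cfsg.Agent.Lib.Helper16.Grouping.finsum_mem_eq_sum_filter_univ, Finset.mul_sum]
  rw [← Finset.sum_subset (s₁ := (Finset.univ.filter
    (· ∈ {h : ↥C | IsConj r (h : G)})).map (Function.Embedding.subtype _))
    (s₂ := conjFinset r)]
  · rw [Finset.sum_map]
    apply Finset.sum_congr rfl
    intro c hc
    rw [Finset.mem_filter] at hc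
    have hc2 : IsConj r (c : G) := hc.2
    have : f ((Function.Embedding.subtype _) c) = f (c : G) := rfl
    rw [this, hfin c, blockCoeff_eq_of_isConj B hc2]
    ring
  · intro x hx
    rw [Finset.mem_map] at hx
    obtain ⟨c, hc, rfl⟩ := hx
    rw [Finset.mem_filter] at hc
    exact mem_conjFinset.mpr hc.2
  · intro x hx hx2
    apply hfout
    intro h
    apply hx2
    rw [Finset.mem_map]
    refine ⟨⟨x, h⟩, ?_, rfl⟩
    rw [Finset.mem_filter]
    exact ⟨Finset.mem_univ _, mem_conjFinset.mp hx⟩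

/-- (W1) If `b^G = B` (with `b` a block of the subgroup `C`) and `θ ∈ b`, then
`∑_{c ∈ C} blockCoeff B c * θ c / θ 1 ≡ 1` modulo the local ideal at `M`. -/
theorem brauer_omega {G : Type u} [Group G] [Finite G] (p : ℕ) [Fact p.Prime]
    (M : Ideal AlgInt) (hM : IsPModular p M) (C : Subgroup G)
    (b : Set (IrrCharacter ↥C)) (B : Set (IrrCharacter G))
    (hind : IsInducedBlock M C b B) (θ : IrrCharacter ↥C) (hθ : θ ∈ b) :
    MemLocalIdeal M (∑ᶠ c : ↥C, blockCoeff B (c : G) * (θ : ↥C → ℂ) c / (θ : ↥C → ℂ) 1 - 1) := by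
  classical
  cases nonempty_fintype G
  have hMp : M.IsPrime := hM.2.1.isPrime
  obtain ⟨R, hR⟩ := exists_reps (G := G)
  have hR' : ∀ (χ : G → ℂ) (z : MonoidAlgebra ℂ G), (∀ x g : G, χ (x * g * x⁻¹) = χ g) →
      z ∈ Zc G → omega χ z = ∑ r ∈ R, z.coeff r * centralChar χ r := by
    intro χ z hχ hz
    unfold omega
    rw [pair_eq_sum, hR, Finset.sum_div]
    apply Finset.sum_congr rfl
    intro r _
    have h1 : ∀ x ∈ conjFinset r, z.coeff x * χ x = z.coeff r * χ r := by
      intro x hx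
      obtain ⟨c, hc⟩ := isConj_iff.mp (mem_conjFinset.mp hx)
      rw [← hc, hχ, (mem_center_iff z).mp hz]
    rw [Finset.sum_congr rfl h1, Finset.sum_const, card_conjFinset, nsmul_eq_mul]
    unfold centralChar
    ring
  have key := induced_sum_sub_one_mem hMp C b B hind θ hθ R hR'
  rw [sum_reps_eq C B (θ : ↥C → ℂ) R hR] at key
  exact key

end Cfsg.Agent.Lib.Helper48.BrOmega
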