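import Mathlib
import Cfsg.Agent.Lib.Helper37.EluStmt
import Cfsg.Agent.Lib.Helper40.PrimeFix
import Cfsg.Agent.Lib.Helper40.InvDims

/-!
helper48: piece NPA of S5958.  `x ^ r = z`, `z` not an `r`-th power, `n = a t`, `r ∣ a`:
`t` invariant subspaces of dimension `a` (from `Peel`).
-/

set_option autoImplicit false

namespace Cfsg.Agent.Lib.Helper48.EluNPA

open Polynomial Cfsg.Agent.Lib.Helper37.EluStmt

universe u

/-- `toLin' x` is injective when `x ^ r = z • 1`, `z ≠ 0`, `r ≠ 0`. -/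
theorem toLin_injective {F : Type u} [Field F] {n : ℕ} (x : Matrix (Fin n) (Fin n) F) (r : ℕ)
    (hr : 0 < r) (z : F) (hz0 : z ≠ 0) (hx : x ^ r = z • (1 : Matrix (Fin n) (Fin n) F)) :
    Function.Injective (Matrix.toLin' x) := by
  have h1 : (Matrix.toLin' x) ^ r = z • (1 : Module.End F (Fin n → F)) := by
    rw [← Matrix.toLin'_pow, hx, map_smul, Matrix.toLin'_one]
    rfl
  have h3 : (Matrix.toLin' x) ^ (r - 1) * Matrix.toLin' x = z • (1 : Module.End F (Fin n → F)) := by
    rw [← pow_succ, Nat.sub_add_cancel hr, h1]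
  intro v w hvw
  have h4 : ((Matrix.toLin' x) ^ (r - 1) * Matrix.toLin' x) v =
      ((Matrix.toLin' x) ^ (r - 1) * Matrix.toLin' x) w := by
    rw [Module.End.mul_apply, Module.End.mul_apply, hvw]
  rw [h3] at h4
  have h5 : z • v = z • w := h4
  exact smul_right_injective _ hz0 h5

theorem main : Peel.{u} → NonPowA.{u} := by
  classical
  intro hPeel F _ _ p _ _ r _ hrp n a t hn ha hra x z hz hx
  have hr : r.Prime := Fact.out
  have hr0 : (r : F) ≠ 0 := Cfsg.Agent.Lib.Helper40.PrimeFix.cast_ne_zero' (F := F) r hrp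
  have hz0 : z ≠ 0 := by
    rintro rfl
    exact hz 0 (zero_pow hr.ne_zero)
  obtain ⟨A, hA, hcp, -, -⟩ :=
    Cfsg.Agent.Lib.Helper40.PrimeFix.structure_of_nonpower r hr0 x z hz hx
  have hss := Cfsg.Agent.Lib.Helper40.InvDims.isSemisimple_of_pow_eq_smul x r z hz0 hr0 hx
  obtain ⟨b, rfl⟩ := hra
  have hAtb : A = t * b := by
    have h : r * A = r * (t * b) := by rw [hA, hn]; ring
    exact Nat.eq_of_mul_eq_mul_left hr.pos h
  obtain ⟨D, hinv, hfin, hind, htop⟩ := hPeel F (Fin n → F) (Matrix.toLin' x) hss r (r * b) t b 0 0 0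
    (Multiset.replicate A (X ^ r - C z))
    (by rw [Matrix.charpoly_toLin', hcp, pow_zero, one_mul, Multiset.prod_replicate])
    (by
      intro P hP
      rw [Multiset.eq_of_mem_replicate hP]
      exact ⟨monic_X_pow_sub_C z hr.ne_zero, natDegree_X_pow_sub_C⟩)
    (by ring) (by ring) (by rw [Multiset.card_replicate, hAtb]; ring)
  refine ⟨D, hfin, hind, htop, 1, ?_⟩
  intro j
  have hinj := toLin_injective x r hr.pos z hz0 hx
  have hle : (D j).map (Matrix.toLin' x) ≤ D j := by
    rintro _ ⟨v, hv, rfl⟩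
    exact hinv j v hv
  have hfr : Module.finrank F ((D j).map (Matrix.toLin' x)) = Module.finrank F (D j) :=
    (Submodule.equivMapOfInjective _ hinj (D j)).finrank_eq.symm
  exact Submodule.eq_of_le_of_finrank_le hle hfr.ge

end Cfsg.Agent.Lib.Helper48.EluNPA
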