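import Mathlib
import Cfsg.Agent.Lib.Helper37.EluStmt
import Cfsg.Agent.Lib.Helper40.PrimeFix
import Cfsg.Agent.Lib.Helper40.InvDims
import Cfsg.Agent.Lib.Helper48.EluNPA

/-!
helper48: piece NPB of S5958.  `x ^ r = z`, `z` not an `r`-th power, `n = a t`, `r ∣ t`:
a decomposition into `t` subspaces of dimension `a` permuted by `x` (from `Peel`).
-/

set_option autoImplicit false

namespace Cfsg.Agent.Lib.Helper48.EluNPB

open Polynomial Cfsg.Agent.Lib.Helper37.EluStmt

universe u

/-- the cyclic shift on `Fin r` -/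
def nxt (r : ℕ) (hr : 0 < r) (j : Fin r) : Fin r :=
  if h : j.val + 1 < r then ⟨j.val + 1, h⟩ else ⟨0, hr⟩

theorem nxt_injective (r : ℕ) (hr : 0 < r) : Function.Injective (nxt r hr) := by
  intro j j' h
  unfold nxt at h
  apply Fin.ext
  have hj := j.2
  have hj' := j'.2
  split_ifs at h with h1 h2 h2
  · have := congrArg Fin.val h
    simp at this
    omega
  · have := congrArg Fin.val h
    simp at this
  · have := congrArg Fin.val h
    simp at this
  · omega

theorem main : Peel.{u} → NonPowB.{u} := by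
  classical
  intro hPeel F _ _ p _ _ r _ hrp n a t hn ha hrt x z hz hx
  have hr : r.Prime := Fact.out
  have hr0 : (r : F) ≠ 0 := Cfsg.Agent.Lib.Helper40.PrimeFix.cast_ne_zero' (F := F) r hrp
  have hz0 : z ≠ 0 := by
    rintro rfl
    exact hz 0 (zero_pow hr.ne_zero)
  obtain ⟨A, hA, hcp, hdim, -⟩ :=
    Cfsg.Agent.Lib.Helper40.PrimeFix.structure_of_nonpower r hr0 x z hz hx
  have hss := Cfsg.Agent.Lib.Helper40.InvDims.isSemisimple_of_pow_eq_smul x r z hz0 hr0 hx
  obtain ⟨t', rfl⟩ := hrt
  have hAat : A = t' * a := by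
    have h : r * A = r * (t' * a) := by rw [hA, hn]; ring
    exact Nat.eq_of_mul_eq_mul_left hr.pos h
  subst hAat
  obtain ⟨Cm, hinv, hfin, hind, htop⟩ := hPeel F (Fin n → F) (Matrix.toLin' x) hss r r (t' * a)
    1 0 0 0 (Multiset.replicate (t' * a) (X ^ r - C z))
    (by rw [Matrix.charpoly_toLin', hcp, pow_zero, one_mul, Multiset.prod_replicate])
    (by
      intro P hP
      rw [Multiset.eq_of_mem_replicate hP]
      exact ⟨monic_X_pow_sub_C z hr.ne_zero, natDegree_X_pow_sub_C⟩)
    (by ring) (by ring) (by rw [Multiset.card_replicate]; ring)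
  have hinj := Cfsg.Agent.Lib.Helper48.EluNPA.toLin_injective x r hr.pos z hz0 hx
  have hpow : (Matrix.toLin' x) ^ r = z • (1 : Module.End F (Fin n → F)) := by
    rw [← Matrix.toLin'_pow, hx, map_smul, Matrix.toLin'_one]
    rfl
  have hex : ∀ m : Fin (t' * a), ∃ v : Fin n → F, v ∈ Cm m ∧ v ≠ 0 := by
    intro m
    have hne : Cm m ≠ ⊥ := by
      intro h
      have h1 := hfin m
      rw [h, finrank_bot] at h1
      exact hr.ne_zero h1.symm
    exact Submodule.exists_mem_ne_zero_of_ne_bot hne
  choose v hvC hv0 using hex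
  have hpowC : ∀ (m : Fin (t' * a)) (j : ℕ), ((Matrix.toLin' x) ^ j) (v m) ∈ Cm m := by
    intro m j
    induction j with
    | zero => simpa using hvC m
    | succ j ih =>
      rw [pow_succ', Module.End.mul_apply]
      exact hinv m _ ih
  obtain ⟨b, hb⟩ : ∃ b : Fin (t' * a) × Fin r → (Fin n → F),
      b = fun y => ((Matrix.toLin' x) ^ (y.2 : ℕ)) (v y.1) := ⟨_, rfl⟩
  have hbdef : ∀ m j, b (m, j) = ((Matrix.toLin' x) ^ (j : ℕ)) (v m) := fun m j => by rw [hb]
  have hstep : ∀ (m : Fin (t' * a)) (j : Fin r),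
      (Matrix.toLin' x) (b (m, j)) =
        (if j.val + 1 < r then (1 : F) else z) • b (m, nxt r hr.pos j) := by
    intro m j
    rw [hbdef, hbdef]
    unfold nxt
    split_ifs with h
    · rw [one_smul, ← Module.End.mul_apply, ← pow_succ']
    · have hj : j.val + 1 = r := by have := j.2; omega
      rw [← Module.End.mul_apply, ← pow_succ', hj, hpow]
      simp
  have hW : ∀ m : Fin (t' * a),
      Submodule.span F (Set.range (fun j : Fin r => b (m, j))) = Cm m := by
    intro m
    have hle : Submodule.span F (Set.range (fun j : Fin r => b (m, j))) ≤ Cm m := by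
      rw [Submodule.span_le]
      rintro _ ⟨j, rfl⟩
      show b (m, j) ∈ Cm m
      rw [hbdef]
      exact hpowC m j
    have hinvW : (Submodule.span F (Set.range (fun j : Fin r => b (m, j)))).map
        (Matrix.toLin' x) ≤ Submodule.span F (Set.range (fun j : Fin r => b (m, j))) := by
      rw [Submodule.map_span, Submodule.span_le]
      rintro _ ⟨_, ⟨j, rfl⟩, rfl⟩
      show (Matrix.toLin' x) (b (m, j)) ∈
        Submodule.span F (Set.range (fun j : Fin r => b (m, j)))
      rw [hstep]
      exact Submodule.smul_mem _ _ (Submodule.subset_span ⟨_, rfl⟩)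
    obtain ⟨j, -, hj⟩ := (hdim _).mp ⟨_, rfl, hinvW⟩
    have hne : Submodule.span F (Set.range (fun j : Fin r => b (m, j))) ≠ ⊥ := by
      intro h
      have h0 : b (m, ⟨0, hr.pos⟩) ∈
          Submodule.span F (Set.range (fun j : Fin r => b (m, j))) :=
        Submodule.subset_span ⟨_, rfl⟩
      rw [h, Submodule.mem_bot, hbdef] at h0
      simp at h0
      exact hv0 m h0
    have hpos : Module.finrank F
        (Submodule.span F (Set.range (fun j : Fin r => b (m, j)))) ≠ 0 := by
      intro h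
      exact hne (Submodule.finrank_eq_zero.mp h)
    have hj1 : j ≠ 0 := by
      rintro rfl
      rw [mul_zero] at hj
      exact hpos hj.symm
    have hfr : r ≤ Module.finrank F
        (Submodule.span F (Set.range (fun j : Fin r => b (m, j)))) := by
      rw [← hj]
      exact Nat.le_mul_of_pos_right r (Nat.pos_of_ne_zero hj1)
    exact Submodule.eq_of_le_of_finrank_le hle (by rw [hfin m]; exact hfr)
  have hspan : Submodule.span F (Set.range b) = ⊤ := by
    rw [eq_top_iff, ← htop]
    refine iSup_le fun m => ?_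
    rw [← hW m]
    apply Submodule.span_mono
    rintro _ ⟨j, rfl⟩
    exact ⟨(m, j), rfl⟩
  have hli : LinearIndependent F b := by
    apply linearIndependent_of_top_le_span_of_card_eq_finrank (le_of_eq hspan.symm)
    rw [Fintype.card_prod, Fintype.card_fin, Fintype.card_fin, Module.finrank_fin_fun, ← hA]
    ring
  have hπ : Function.Injective
      (fun y : Fin (t' * a) × Fin r => (y.1, nxt r hr.pos y.2)) := by
    rintro ⟨m, j⟩ ⟨m', j'⟩ h
    simp only [Prod.mk.injEq] at h
    rw [Prod.mk.injEq]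
    exact ⟨h.1, nxt_injective r hr.pos h.2⟩
  obtain ⟨e1, -⟩ : ∃ e : Fin (r * t') ≃ Fin t' × Fin r, True :=
    ⟨(finCongr (Nat.mul_comm r t')).trans finProdFinEquiv.symm, trivial⟩
  obtain ⟨e2, -⟩ : ∃ e : Fin (t' * a) ≃ Fin t' × Fin a, True :=
    ⟨finProdFinEquiv.symm, trivial⟩
  obtain ⟨B, hB⟩ : ∃ B : Fin (r * t') → Finset (Fin (t' * a) × Fin r),
      ∀ k y, y ∈ B k ↔ (e2 y.1).1 = (e1 k).1 ∧ y.2 = (e1 k).2 := by
    refine ⟨fun k => Finset.univ.filter (fun y => (e2 y.1).1 = (e1 k).1 ∧ y.2 = (e1 k).2), ?_⟩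
    intro k y
    simp
  have hBcard : ∀ k, (B k).card = a := by
    intro k
    have h1 : B k = Finset.univ.image
        (fun i : Fin a => ((e2.symm ((e1 k).1, i), (e1 k).2) : Fin (t' * a) × Fin r)) := by
      ext y
      rw [hB, Finset.mem_image]
      constructor
      · rintro ⟨h1, h2⟩
        refine ⟨(e2 y.1).2, Finset.mem_univ _, ?_⟩
        rw [← h1, ← h2]
        simp
      · rintro ⟨i, -, rfl⟩
        simp
    rw [h1, Finset.card_image_of_injective, Finset.card_univ, Fintype.card_fin]
    intro i i' h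
    simp only [Prod.mk.injEq] at h
    have h2 := e2.symm.injective h.1
    simp only [Prod.mk.injEq] at h2
    exact h2.2
  have hBdisj : ∀ k l, k ≠ l → Disjoint (B k) (B l) := by
    intro k l hkl
    rw [Finset.disjoint_left]
    intro y hy hy'
    rw [hB] at hy hy'
    apply hkl
    apply e1.injective
    exact Prod.ext (hy.1.symm.trans hy'.1) (hy.2.symm.trans hy'.2)
  have hBcover : ∀ y, ∃ k, y ∈ B k := by
    intro y
    refine ⟨e1.symm ((e2 y.1).1, y.2), ?_⟩
    rw [hB]
    simp
  have hBimg : ∀ k, ∃ l,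
      (B k).image (fun y : Fin (t' * a) × Fin r => (y.1, nxt r hr.pos y.2)) = B l := by
    intro k
    refine ⟨e1.symm ((e1 k).1, nxt r hr.pos (e1 k).2), ?_⟩
    ext y
    rw [Finset.mem_image, hB]
    simp only [Equiv.apply_symm_apply]
    constructor
    · rintro ⟨y', hy', rfl⟩
      rw [hB] at hy'
      exact ⟨hy'.1, by rw [hy'.2]⟩
    · rintro ⟨h1, h2⟩
      refine ⟨(y.1, (e1 k).2), ?_, ?_⟩
      · rw [hB]
        exact ⟨h1, rfl⟩
      · exact Prod.ext rfl h2.symm
  exact of_blocks (Matrix.toLin' x) hinj b (fun y => (y.1, nxt r hr.pos y.2))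
    (fun y => if y.2.val + 1 < r then (1 : F) else z) hli hspan hπ
    (fun y => hstep y.1 y.2) a (r * t') ha B hBcard hBdisj hBcover hBimg

end Cfsg.Agent.Lib.Helper48.EluNPB
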