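import Mathlib
import Cfsg.Agent.Lib.Helper40.HPStmt
import Cfsg.Agent.Lib.Helper82.OPNEGSQNOFIX
import Cfsg.Agent.Lib.Helper2.NegSqGen

/-!
# S5974 / NEGSQNOHYP (call by helper40)

`q ≡ 3 (mod 4)`, `m ≡ 2 (mod 4)`: an isometry `x` of the plus form with `x * x = -1` stabilises
no hyperbolic `m`-space `W`.  On a basis of `W` extending a basis of a totally singular `U` of
dimension `m / 2` the Gram matrix is `fromBlocks 0 A Aᵀ D`, of determinant `(-1)^(m/2) (det A)^2`,
minus a square; but the Gram determinant is a square (`Helper2.NegSqGen.isSquare_det`), and `-1`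
is not a square.  (Skeleton of the restriction to `W` as in `Helper82.OPNEGSQNOFIX`.)
-/

set_option autoImplicit false

universe u

open scoped Matrix

namespace Cfsg.Agent.Lib.Helper48.HPNEGSQNOHYP

open Cfsg.Agent.Lib.Helper94.OPStmt Cfsg.Agent.Lib.Helper44.NegPairs
open Cfsg.Agent.Lib.Helper40.HPStmt

/-- determinant of a block matrix with zero upper left block -/
theorem det_zero11 {F : Type u} [Field F] {n : Type} [Fintype n] [DecidableEq n]
    (A C D : Matrix n n F) :
    (Matrix.fromBlocks 0 A C D).det = (-1) ^ Fintype.card n * A.det * C.det := by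
  have h1 : Matrix.fromBlocks 0 A C D
      = Matrix.fromBlocks A 0 D C *
        Matrix.fromBlocks (0 : Matrix n n F) (1 : Matrix n n F) (1 : Matrix n n F) 0 := by
    rw [Matrix.fromBlocks_multiply]; simp
  have h2 : (Matrix.fromBlocks (0 : Matrix n n F) (1 : Matrix n n F) (1 : Matrix n n F)
      (0 : Matrix n n F)).det = (-1) ^ Fintype.card n := by
    have h3 : Matrix.fromBlocks (0 : Matrix n n F) (1 : Matrix n n F) (1 : Matrix n n F)
        (0 : Matrix n n F)
        = Matrix.fromBlocks (0 : Matrix n n F) (1 : Matrix n n F) (1 : Matrix n n F)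
            (1 : Matrix n n F) *
          Matrix.fromBlocks (1 : Matrix n n F) (-1 : Matrix n n F) (0 : Matrix n n F)
            (1 : Matrix n n F) := by
      rw [Matrix.fromBlocks_multiply]; simp
    rw [h3, Matrix.det_mul, Matrix.det_fromBlocks_one₂₂, Matrix.det_fromBlocks_zero₂₁]
    simp [Matrix.det_neg]
  rw [h1, Matrix.det_mul, Matrix.det_fromBlocks_zero₁₂, h2]; ring

theorem main : NegSqNoHyp.{u} := by
  intro F _ _ hq d m hm x hx hxx W hHyp hst
  classical
  obtain ⟨hWm, hW, U, hUW, hU0, hU2⟩ := (hypJ_iff d m W).mp hHyp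
  have hodd : Odd (Fintype.card F) := by
    rw [Nat.odd_iff]; omega
  have h2 : (2 : F) ≠ 0 := Cfsg.Agent.Lib.Helper82.OPNEGSQNOFIX.two_ne_zero_of_odd F hodd
  have hQ : ∀ u : P d → F, Cfsg.quadFormPlus d F ((x : Matrix (P d) (P d) F) *ᵥ u)
      = Cfsg.quadFormPlus d F u := fun u => hx u u
  have hinv : ∀ w ∈ W, Matrix.toLin' (x : Matrix (P d) (P d) F) w ∈ W :=
    fun w hw => hst (Submodule.mem_map_of_mem hw)
  obtain ⟨A, hA⟩ : ∃ A : ↥W →ₗ[F] ↥W, ∀ w : ↥W,
      ((A w : ↥W) : P d → F) = (x : Matrix (P d) (P d) F) *ᵥ (w : P d → F) :=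
    ⟨(Matrix.toLin' (x : Matrix (P d) (P d) F)).restrict hinv, fun w => by
      rw [LinearMap.coe_restrict_apply, Matrix.toLin'_apply]⟩
  obtain ⟨B, hB⟩ : ∃ B : LinearMap.BilinForm F ↥W, ∀ u v : ↥W,
      B u v = QuadraticMap.polar (Cfsg.quadFormPlus d F) (u : P d → F) (v : P d → F) :=
    ⟨LinearMap.BilinForm.restrict (QuadraticMap.polarBilin (plusQ d F)) W, fun u v => rfl⟩
  have hnd : B.Nondegenerate := by
    constructor
    · intro u hu
      by_contra hu0
      have hu0' : (u : P d → F) ≠ 0 := fun h => hu0 (Subtype.ext h)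
      obtain ⟨-, ⟨y, hy, hyu⟩⟩ := hW u u.2 hu0'
      apply hyu
      have h1 := hu ⟨y, hy⟩
      rw [hB] at h1
      exact h1
    · intro v hv
      by_contra hv0
      have hv0' : (v : P d → F) ≠ 0 := fun h => hv0 (Subtype.ext h)
      obtain ⟨⟨y, hy, hyv⟩, -⟩ := hW v v.2 hv0'
      apply hyv
      have h1 := hv ⟨y, hy⟩
      rw [hB] at h1
      exact h1
  have hiso : ∀ u v : ↥W, B (A u) (A v) = B u v := by
    intro u v
    rw [hB, hB, hA, hA]
    unfold QuadraticMap.polar
    rw [← Matrix.mulVec_add, hQ, hQ, hQ]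
  have hAA : A ∘ₗ A = (-1 : F) • LinearMap.id := by
    apply LinearMap.ext
    intro w
    apply Subtype.ext
    rw [LinearMap.comp_apply, hA, hA, Matrix.mulVec_mulVec, hxx, Matrix.neg_mulVec,
      Matrix.one_mulVec, LinearMap.smul_apply, LinearMap.id_apply, neg_smul, one_smul]
    rfl
  have hsymm : ∀ u v : ↥W, B u v = B v u := by
    intro u v
    rw [hB, hB, QuadraticMap.polar_comm]
  -- the adapted basis
  obtain ⟨h, hh⟩ : ∃ h : ℕ, Module.finrank F ↥U = h := ⟨_, rfl⟩
  have hm2 : m = 2 * h := by rw [← hh, hU2, hWm]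
  have hhodd : Odd h := by
    rw [Nat.odd_iff]; omega
  obtain ⟨U', hU'⟩ : ∃ U' : Submodule F ↥W, U' = U.comap W.subtype := ⟨_, rfl⟩
  have hU'fin : Module.finrank F ↥U' = h := by
    rw [hU', ← hh]
    exact (Submodule.comapSubtypeEquivOfLe hUW).finrank_eq
  obtain ⟨C, hC⟩ := Submodule.exists_isCompl U'
  have hCfin : Module.finrank F ↥C = h := by
    have := Submodule.finrank_add_eq_of_isCompl hC
    rw [hU'fin, hWm, hm2] at this
    omega
  have hfU : Module.Free F ↥U' := Module.Free.of_divisionRing F ↥U'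
  have hfC : Module.Free F ↥C := Module.Free.of_divisionRing F ↥C
  have bU : Module.Basis (Fin h) F ↥U' := Module.finBasisOfFinrankEq F ↥U' hU'fin
  have bC : Module.Basis (Fin h) F ↥C := Module.finBasisOfFinrankEq F ↥C hCfin
  obtain ⟨b, hb⟩ : ∃ b : Module.Basis (Fin h ⊕ Fin h) F ↥W, ∀ a : Fin h, b (Sum.inl a) ∈ U' := by
    refine ⟨(bU.prod bC).map (Submodule.prodEquivOfIsCompl U' C hC), ?_⟩
    intro a
    rw [Module.Basis.map_apply, Module.Basis.prod_apply]
    simp
  -- Gram matrix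
  obtain ⟨S, hS⟩ : ∃ S : Matrix (Fin h ⊕ Fin h) (Fin h ⊕ Fin h) F,
      S = LinearMap.BilinForm.toMatrix b B := ⟨_, rfl⟩
  have hSapp : ∀ i j, S i j = B (b i) (b j) := by
    intro i j
    rw [hS, LinearMap.BilinForm.toMatrix_apply]
  have hSt : Sᵀ = S := by
    ext i j
    rw [Matrix.transpose_apply, hSapp, hSapp, hsymm]
  have hdet : S.det ≠ 0 := by
    rw [hS]
    exact (LinearMap.BilinForm.nondegenerate_iff_det_ne_zero b).1 hnd
  have hx1 : (LinearMap.toMatrix b b A)ᵀ * S * (LinearMap.toMatrix b b A) = S := by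
    have h1 : B.comp A A = B := by
      apply LinearMap.ext₂
      intro u v
      exact hiso u v
    have h3 := LinearMap.BilinForm.toMatrix_comp b b B A A
    rw [h1] at h3
    rw [hS]
    exact h3.symm
  have hxx1 : (LinearMap.toMatrix b b A) * (LinearMap.toMatrix b b A) = -1 := by
    rw [← LinearMap.toMatrix_comp b b b, hAA]
    rw [map_smul, LinearMap.toMatrix_id]
    simp
  have hsq : IsSquare S.det :=
    Cfsg.Agent.Lib.Helper2.NegSqGen.isSquare_det h2 S (LinearMap.toMatrix b b A) hSt hdet hx1 hxx1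
  -- block form
  have h11 : S.toBlocks₁₁ = 0 := by
    ext i j
    rw [Matrix.toBlocks₁₁, Matrix.of_apply, hSapp, hB, Matrix.zero_apply]
    have hi : ((b (Sum.inl i) : ↥W) : P d → F) ∈ U := by
      have := hb i
      rw [hU'] at this
      exact this
    have hj : ((b (Sum.inl j) : ↥W) : P d → F) ∈ U := by
      have := hb j
      rw [hU'] at this
      exact this
    unfold QuadraticMap.polar
    rw [hU0 _ (U.add_mem hi hj), hU0 _ hi, hU0 _ hj]
    ring
  have h21 : S.toBlocks₂₁ = S.toBlocks₁₂ᵀ := by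
    ext i j
    rw [Matrix.transpose_apply, Matrix.toBlocks₂₁, Matrix.toBlocks₁₂, Matrix.of_apply,
      Matrix.of_apply, hSapp, hSapp, hsymm]
  have hSdet : S.det = (-1) ^ h * S.toBlocks₁₂.det * S.toBlocks₁₂.det := by
    have h5 := det_zero11 S.toBlocks₁₂ S.toBlocks₂₁ S.toBlocks₂₂
    rw [← h11, Matrix.fromBlocks_toBlocks, h21, Matrix.det_transpose, Fintype.card_fin] at h5
    exact h5
  rw [Odd.neg_one_pow hhodd] at hSdet
  have hA0 : S.toBlocks₁₂.det ≠ 0 := by
    intro h0
    apply hdet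
    rw [hSdet, h0]; ring
  obtain ⟨r, hr⟩ := hsq
  have hneg : IsSquare (-1 : F) := by
    refine ⟨r / S.toBlocks₁₂.det, ?_⟩
    have hr' : -1 * S.toBlocks₁₂.det * S.toBlocks₁₂.det = r * r := by
      rw [← hSdet]; exact hr
    field_simp
    linear_combination hr'
  exact (FiniteField.isSquare_neg_one_iff.mp hneg) hq

end Cfsg.Agent.Lib.Helper48.HPNEGSQNOHYP
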