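import Cfsg.Agent.Lib.Helper10.Thompson
import Cfsg.Agent.Lib.Helper90.TTCore
import Cfsg.Agent.Lib.Helper49.SubnPair
import Mathlib

/-! Counting lemmas for the local analysis of `J(T)`-components:
* a counting lemma for an abelian group acting on an abelian group with a "simple socle"
  (via characters),
* an involution acting on an elementary abelian 2-group has at least square-root many fixed
  points,
* the main counting lemma: an elementary abelian 2-group `U` on which an element `y` of order 3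
  acts without fixed points, inverted by an involution `a` of a largest elementary abelian
  subgroup `A`, has order at most 4. -/

set_option autoImplicit false
set_option linter.unusedSectionVars false
set_option linter.unusedVariables false
set_option linter.style.haveILetI false

namespace Cfsg.Agent.Lib.Helper48.JCount

section Count

variable {G : Type*} [Group G]

/-- If the fibres of `f` lie in cosets of `N`, then `|H| ≤ |N| |range f|`. -/
theorem card_le_mul_card_range {H : Type*} [Group H] [Finite H] {β : Type*} (N : Subgroup H)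
    (f : H → β) (hf : ∀ x y, f x = f y → x⁻¹ * y ∈ N) :
    Nat.card H ≤ Nat.card N * Nat.card (Set.range f) := by
  classical
  have hfin : Finite (Set.range f) := Set.finite_range f
  let s : Set.range f → H := fun b => Classical.choose b.2
  have hs : ∀ b : Set.range f, f (s b) = b.1 := fun b => Classical.choose_spec b.2
  let F : H → N × Set.range f := fun x =>
    (⟨(s ⟨f x, x, rfl⟩)⁻¹ * x, hf _ _ (hs ⟨f x, x, rfl⟩)⟩, ⟨f x, x, rfl⟩)
  have hF : Function.Injective F := by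
    intro x x' hxx
    have h1 : f x = f x' := congrArg (fun p : N × Set.range f => (p.2 : β)) hxx
    have h2 : (s ⟨f x, x, rfl⟩)⁻¹ * x = (s ⟨f x', x', rfl⟩)⁻¹ * x' :=
      congrArg (fun p : N × Set.range f => (p.1 : H)) hxx
    have h3 : (⟨f x, x, rfl⟩ : Set.range f) = ⟨f x', x', rfl⟩ := Subtype.ext h1
    rw [h3] at h2
    exact mul_left_cancel h2
  have := Nat.card_le_card_of_injective F hF
  rwa [Nat.card_prod] at this

/-- Counting lemma: an abelian group `E` acting on the finite abelian group `X` such that every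
nontrivial `E`-invariant subgroup of `X` contains the `E`-fixed element `u₀ ≠ 1`. Then
`|E : C_E(X)| ≤ |X| - 1`. -/
theorem card_le_of_simple_socle [Finite G] (E X : Subgroup G) (u₀ : G)
    (hXc : ∀ x ∈ X, ∀ x' ∈ X, x * x' = x' * x)
    (hEX : ∀ e ∈ E, ∀ x ∈ X, e * x * e⁻¹ ∈ X)
    (hEc : ∀ e ∈ E, ∀ e' ∈ E, e * e' = e' * e)
    (hu₀ : u₀ ∈ X) (hu₀1 : u₀ ≠ 1) (hfix : ∀ e ∈ E, e * u₀ * e⁻¹ = u₀)
    (hsoc : ∀ Y : Subgroup G, Y ≤ X → Y ≠ ⊥ → (∀ e ∈ E, ∀ w ∈ Y, e * w * e⁻¹ ∈ Y) → u₀ ∈ Y) :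
    Nat.card E + Nat.card (E ⊓ Subgroup.centralizer (X : Set G) : Subgroup G) ≤
      Nat.card (E ⊓ Subgroup.centralizer (X : Set G) : Subgroup G) * Nat.card X := by
  classical
  letI : CommGroup ↥X :=
    { (inferInstance : Group ↥X) with
      mul_comm := fun x x' => Subtype.ext (hXc x x.2 x' x'.2) }
  haveI : NeZero (Monoid.exponent ↥X) := ⟨Monoid.exponent_ne_zero_of_finite⟩
  have hu₀' : (⟨u₀, hu₀⟩ : ↥X) ≠ 1 := fun h => hu₀1 (congrArg Subtype.val h)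
  obtain ⟨φ, hφ⟩ := CommGroup.exists_apply_ne_one_of_hasEnoughRootsOfUnity ↥X ℂ hu₀'
  -- the commutator homomorphisms
  let κ : ↥E → (↥X →* ↥X) := fun e =>
    { toFun := fun u => ⟨(e : G) * u * (e : G)⁻¹ * (u : G)⁻¹,
        X.mul_mem (hEX e e.2 u u.2) (X.inv_mem u.2)⟩
      map_one' := by
        apply Subtype.ext
        simp
      map_mul' := by
        intro u v
        apply Subtype.ext
        show (e : G) * (u * v : ↥X) * (e : G)⁻¹ * ((u * v : ↥X) : G)⁻¹ =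
          ((e : G) * u * (e : G)⁻¹ * (u : G)⁻¹) * ((e : G) * v * (e : G)⁻¹ * (v : G)⁻¹)
        have h1 : (u : G)⁻¹ * ((e : G) * v * (e : G)⁻¹ * (v : G)⁻¹) =
            ((e : G) * v * (e : G)⁻¹ * (v : G)⁻¹) * (u : G)⁻¹ :=
          hXc _ (X.inv_mem u.2) _ (X.mul_mem (hEX e e.2 v v.2) (X.inv_mem v.2))
        calc (e : G) * (u * v : ↥X) * (e : G)⁻¹ * ((u * v : ↥X) : G)⁻¹
            = (e : G) * u * (e : G)⁻¹ * (((e : G) * v * (e : G)⁻¹ * (v : G)⁻¹) * (u : G)⁻¹) := by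
              rw [Subgroup.coe_mul]; group
          _ = (e : G) * u * (e : G)⁻¹ * ((u : G)⁻¹ * ((e : G) * v * (e : G)⁻¹ * (v : G)⁻¹)) := by
              rw [h1]
          _ = _ := by group }
  have hκ : ∀ (e : ↥E) (u : ↥X), ((κ e u : ↥X) : G) = (e : G) * u * (e : G)⁻¹ * (u : G)⁻¹ :=
    fun e u => rfl
  let θ : ↥E → (↥X →* ℂˣ) := fun e => φ.comp (κ e)
  set E₀ : Subgroup G := E ⊓ Subgroup.centralizer (X : Set G) with hE₀
  -- fibres
  have hfib : ∀ e e' : ↥E, θ e = θ e' → e⁻¹ * e' ∈ E₀.subgroupOf E := by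
    intro e e' hθ
    rw [Subgroup.mem_subgroupOf, hE₀, Subgroup.mem_inf]
    refine ⟨(e⁻¹ * e').2, ?_⟩
    obtain ⟨g, hg⟩ : ∃ g : ↥E, g = e⁻¹ * e' := ⟨_, rfl⟩
    rw [← hg]
    set Y : Subgroup G := (κ g).range.map X.subtype with hY
    have hYX : Y ≤ X := by
      rintro _ ⟨w, -, rfl⟩
      exact w.2
    have hYmem : ∀ w : G, w ∈ Y ↔ ∃ u : ↥X, w = (g : G) * u * (g : G)⁻¹ * (u : G)⁻¹ := by
      intro w
      constructor
      · rintro ⟨w', ⟨u, rfl⟩, rfl⟩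
        exact ⟨u, rfl⟩
      · rintro ⟨u, rfl⟩
        exact ⟨κ g u, ⟨u, rfl⟩, rfl⟩
    by_cases hYb : Y = ⊥
    · rw [Subgroup.mem_centralizer_iff]
      intro x hx
      have h1 : (g : G) * x * (g : G)⁻¹ * x⁻¹ ∈ Y := (hYmem _).mpr ⟨⟨x, hx⟩, rfl⟩
      rw [hYb, Subgroup.mem_bot] at h1
      calc x * (g : G) = ((g : G) * x * (g : G)⁻¹ * x⁻¹)⁻¹ * ((g : G) * x) := by group
        _ = (g : G) * x := by rw [h1, inv_one, one_mul]
    · exfalso
      have hinv : ∀ e₁ ∈ E, ∀ w ∈ Y, e₁ * w * e₁⁻¹ ∈ Y := by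
        intro e₁ he₁ w hw
        obtain ⟨u, rfl⟩ := (hYmem w).mp hw
        refine (hYmem _).mpr ⟨⟨e₁ * u * e₁⁻¹, hEX e₁ he₁ u u.2⟩, ?_⟩
        have hc : e₁ * (g : G) = (g : G) * e₁ := hEc e₁ he₁ g g.2
        have hc' : e₁⁻¹ * (g : G)⁻¹ = (g : G)⁻¹ * e₁⁻¹ := by
          have : ((g : G) * e₁)⁻¹ = (e₁ * (g : G))⁻¹ := by rw [hc]
          simpa [mul_inv_rev] using this
        show e₁ * ((g : G) * u * (g : G)⁻¹ * (u : G)⁻¹) * e₁⁻¹ =
          (g : G) * (e₁ * u * e₁⁻¹) * (g : G)⁻¹ * (e₁ * u * e₁⁻¹)⁻¹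
        calc e₁ * ((g : G) * u * (g : G)⁻¹ * (u : G)⁻¹) * e₁⁻¹
            = (e₁ * (g : G)) * u * ((g : G)⁻¹ * e₁⁻¹) * (e₁ * (u : G)⁻¹ * e₁⁻¹) := by group
          _ = ((g : G) * e₁) * u * (e₁⁻¹ * (g : G)⁻¹) * (e₁ * (u : G)⁻¹ * e₁⁻¹) := by
              rw [hc, hc']
          _ = _ := by group
      have hu₀Y := hsoc Y hYX hYb hinv
      obtain ⟨u, hu⟩ := (hYmem u₀).mp hu₀Y
      -- evaluate θ at u
      have h1 : θ e u = θ e' u := by rw [hθ]
      have h2 : ((e' : ↥E) : G) = (e : G) * (g : G) := by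
        rw [hg]; simp
      have h3 : (κ e' u : ↥X) = ⟨u₀, hu₀⟩ * κ e u := by
        apply Subtype.ext
        rw [Subgroup.coe_mul, hκ, hκ, h2]
        have h4 : (e : G) * u₀ * (e : G)⁻¹ = u₀ := hfix e e.2
        calc (e : G) * (g : G) * u * ((e : G) * (g : G))⁻¹ * (u : G)⁻¹
            = (e : G) * ((g : G) * u * (g : G)⁻¹ * (u : G)⁻¹) * (e : G)⁻¹ *
                ((e : G) * u * (e : G)⁻¹ * (u : G)⁻¹) := by group
          _ = (e : G) * u₀ * (e : G)⁻¹ * ((e : G) * u * (e : G)⁻¹ * (u : G)⁻¹) := by rw [← hu]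
          _ = u₀ * ((e : G) * u * (e : G)⁻¹ * (u : G)⁻¹) := by rw [h4]
      have h5 : θ e' u = φ ⟨u₀, hu₀⟩ * θ e u := by
        show φ (κ e' u) = φ ⟨u₀, hu₀⟩ * φ (κ e u)
        rw [h3, map_mul]
      rw [h5] at h1
      exact hφ (mul_eq_right.mp h1.symm)
  -- the image misses φ
  have hmiss : φ ∉ Set.range θ := by
    rintro ⟨e, he⟩
    have h1 : θ e ⟨u₀, hu₀⟩ = 1 := by
      show φ (κ e ⟨u₀, hu₀⟩) = 1
      have h2 : κ e ⟨u₀, hu₀⟩ = 1 := by
        apply Subtype.ext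
        rw [hκ]
        show (e : G) * u₀ * (e : G)⁻¹ * u₀⁻¹ = 1
        rw [hfix e e.2, mul_inv_cancel]
      rw [h2, map_one]
    rw [he] at h1
    exact hφ h1
  have hcardHom : Nat.card (↥X →* ℂˣ) = Nat.card ↥X :=
    CommGroup.card_monoidHom_of_hasEnoughRootsOfUnity ↥X ℂ
  haveI : Finite (↥X →* ℂˣ) := by
    apply Nat.finite_of_card_ne_zero
    rw [hcardHom]
    exact Nat.card_pos.ne'
  have hrange : Nat.card (Set.range θ) + 1 ≤ Nat.card ↥X := by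
    rw [← hcardHom, Nat.card_coe_set_eq, ← Set.ncard_insert_of_notMem hmiss (Set.toFinite _)]
    exact Set.ncard_le_card _
  have h1 := card_le_mul_card_range (E₀.subgroupOf E) θ hfib
  have h2 : Nat.card (E₀.subgroupOf E) = Nat.card E₀ :=
    Nat.card_congr (Subgroup.subgroupOfEquivOfLe inf_le_left).toEquiv
  rw [h2] at h1
  calc Nat.card E + Nat.card E₀ ≤ Nat.card E₀ * Nat.card (Set.range θ) + Nat.card E₀ :=
        Nat.add_le_add_right h1 _
    _ = Nat.card E₀ * (Nat.card (Set.range θ) + 1) := by ring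
    _ ≤ Nat.card E₀ * Nat.card X := Nat.mul_le_mul_left _ hrange

/-- An involution acting on an elementary abelian `2`-group `U` fixes at least `√|U|` points. -/
theorem card_le_sq_fix [Finite G] (U : Subgroup G) (a : G) (ha : a * a = 1)
    (haU : ∀ u ∈ U, a * u * a⁻¹ ∈ U) (hUc : ∀ x ∈ U, ∀ y ∈ U, x * y = y * x)
    (hU2 : ∀ u ∈ U, u * u = 1) :
    Nat.card U ≤ Nat.card (U ⊓ Subgroup.centralizer ({a} : Set G) : Subgroup G) ^ 2 := by
  have hainv : a⁻¹ = a := inv_eq_of_mul_eq_one_left ha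
  let ν : ↥U →* ↥U :=
    { toFun := fun u => ⟨(u : G) * (a * u * a⁻¹), U.mul_mem u.2 (haU u u.2)⟩
      map_one' := by
        apply Subtype.ext
        simp
      map_mul' := by
        intro u v
        apply Subtype.ext
        show ((u * v : ↥U) : G) * (a * (u * v : ↥U) * a⁻¹) =
          ((u : G) * (a * u * a⁻¹)) * ((v : G) * (a * v * a⁻¹))
        have h1 : (v : G) * (a * u * a⁻¹) = (a * u * a⁻¹) * (v : G) := hUc _ v.2 _ (haU u u.2)
        calc ((u * v : ↥U) : G) * (a * (u * v : ↥U) * a⁻¹)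
            = (u : G) * ((v : G) * (a * u * a⁻¹)) * (a * v * a⁻¹) := by
              rw [Subgroup.coe_mul]; group
          _ = (u : G) * ((a * u * a⁻¹) * (v : G)) * (a * v * a⁻¹) := by rw [h1]
          _ = _ := by group }
  set F : Subgroup G := U ⊓ Subgroup.centralizer ({a} : Set G) with hF
  have hmemF : ∀ x : G, x ∈ U → a * x * a⁻¹ = x → x ∈ F := by
    intro x hx hax
    rw [hF, Subgroup.mem_inf]
    refine ⟨hx, ?_⟩
    rw [Subgroup.mem_centralizer_iff]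
    intro h hh
    rw [Set.mem_singleton_iff] at hh
    subst hh
    calc h * x = (h * x * h⁻¹) * h := by group
      _ = x * h := by rw [hax]
  have hker : Nat.card ν.ker ≤ Nat.card F := by
    apply Nat.card_le_card_of_injective (fun u : ν.ker => (⟨((u : ↥U) : G), ?_⟩ : ↥F))
    · intro u v huv
      apply Subtype.ext
      apply Subtype.ext
      exact congrArg (fun w : ↥F => (w : G)) huv
    · apply hmemF _ (u : ↥U).2
      have h1 : ν (u : ↥U) = 1 := u.2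
      have h2 : ((u : ↥U) : G) * (a * ((u : ↥U) : G) * a⁻¹) = 1 := congrArg Subtype.val h1
      have h3 := hU2 _ (u : ↥U).2
      have h4 : a * ((u : ↥U) : G) * a⁻¹ = ((u : ↥U) : G)⁻¹ := eq_inv_of_mul_eq_one_right h2
      rw [h4]
      exact (inv_eq_of_mul_eq_one_left h3)
  have hrange : Nat.card ν.range ≤ Nat.card F := by
    apply Nat.card_le_card_of_injective (fun u : ν.range => (⟨((u : ↥U) : G), ?_⟩ : ↥F))
    · intro u v huv
      apply Subtype.ext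
      apply Subtype.ext
      exact congrArg (fun w : ↥F => (w : G)) huv
    · apply hmemF _ (u : ↥U).2
      obtain ⟨w, hw⟩ := u.2
      rw [← hw]
      show a * ((w : G) * (a * w * a⁻¹)) * a⁻¹ = (w : G) * (a * w * a⁻¹)
      have h1 : (a * w * a⁻¹) * (w : G) = (w : G) * (a * w * a⁻¹) := hUc _ (haU w w.2) _ w.2
      calc a * ((w : G) * (a * w * a⁻¹)) * a⁻¹ = (a * w * a⁻¹) * ((a * a) * w * (a * a)⁻¹) := by
            group
        _ = (a * w * a⁻¹) * (w : G) := by rw [ha]; group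
        _ = _ := h1
  have h1 : Nat.card ↥U = Nat.card (↥U ⧸ ν.ker) * Nat.card ν.ker :=
    Subgroup.card_eq_card_quotient_mul_card_subgroup ν.ker
  have h2 : Nat.card (↥U ⧸ ν.ker) = Nat.card ν.range :=
    Nat.card_congr (QuotientGroup.quotientKerEquivRange ν).toEquiv
  rw [h1, h2, pow_two]
  exact Nat.mul_le_mul hrange hker

end Count

section Main

open Cfsg.Agent.Lib.Helper10.Thompson

variable {G : Type*} [Group G] [Finite G]

theorem ea_sq {A : Subgroup G} (hA : Cfsg.IsElementaryAbelian 2 A) {g : G} (hg : g ∈ A) :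
    g * g = 1 := by
  have := hA.2 g hg
  rwa [pow_two] at this

theorem ea_of_sq {A : Subgroup G} (hc : ∀ x ∈ A, ∀ y ∈ A, x * y = y * x)
    (h2 : ∀ x ∈ A, x * x = 1) : Cfsg.IsElementaryAbelian 2 A := by
  refine ⟨?_, fun a ha => by rw [pow_two]; exact h2 a ha⟩
  apply Subgroup.le_centralizer_iff_isMulCommutative.mp
  intro x hx
  rw [Subgroup.mem_centralizer_iff]
  intro y hy
  exact hc y hy x hx

theorem ea_isPGroup2 {A : Subgroup G} (hA : Cfsg.IsElementaryAbelian 2 A) : IsPGroup 2 A :=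
  haveI : Fact (Nat.Prime 2) := ⟨Nat.prime_two⟩
  ea_isPGroup hA

theorem mem_cent_singleton {a u : G} : u ∈ Subgroup.centralizer ({a} : Set G) ↔ a * u = u * a := by
  rw [Subgroup.mem_centralizer_iff]
  constructor
  · intro h; exact h a (Set.mem_singleton a)
  · intro h x hx
    rw [Set.mem_singleton_iff] at hx
    rw [hx]; exact h

/-- The main counting lemma: `U` elementary abelian, `y` of order `3` acting on `U` without fixed
points and inverted by `a ∈ A`, where `A` is a largest elementary abelian `2`-subgroup of `U A`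
normalizing `U`, `A = A₁ ∪ A₁ a`, and `A₁` commutes with `y` in its action on `U`. Then
`|U| ≤ 4`. -/
theorem card_le_four (U A A₁ : Subgroup G) (a y : G)
    (hU : Cfsg.IsElementaryAbelian 2 U)
    (hyU : ∀ u ∈ U, y * u * y⁻¹ ∈ U) (hy3 : y * y * y = 1)
    (hfix : ∀ u ∈ U, y * u * y⁻¹ = u → u = 1)
    (hA : Cfsg.IsElementaryAbelian 2 A)
    (hAU : ∀ g ∈ A, ∀ u ∈ U, g * u * g⁻¹ ∈ U)
    (ha : a ∈ A) (hay : a * y * a⁻¹ = y⁻¹)
    (hA₁ : A₁ ≤ A)
    (hA₁y : ∀ g ∈ A₁, ∀ u ∈ U, g * (y * u * y⁻¹) * g⁻¹ = y * (g * u * g⁻¹) * y⁻¹)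
    (hAA₁ : ∀ g ∈ A, g ∈ A₁ ∨ g * a ∈ A₁)
    (hmax : ∀ B : Subgroup G, B ≤ U ⊔ A → Cfsg.IsElementaryAbelian 2 B →
      Nat.card B ≤ Nat.card A) :
    Nat.card U ≤ 4 := by
  classical
  haveI : Fact (Nat.Prime 2) := ⟨Nat.prime_two⟩
  have hUc := ea_comm hU
  have hU2 : ∀ u ∈ U, u * u = 1 := fun u hu => ea_sq hU hu
  have hAc := ea_comm hA
  have hA2 : ∀ g ∈ A, g * g = 1 := fun g hg => ea_sq hA hg
  have ha2 : a * a = 1 := hA2 a ha
  have hainv : a⁻¹ = a := inv_eq_of_mul_eq_one_left ha2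
  have hy2 : y * y = y⁻¹ := by
    calc y * y = y⁻¹ * (y * y * y) := by group
      _ = y⁻¹ := by rw [hy3, mul_one]
  have hyy : y⁻¹ * y⁻¹ = y := by rw [← mul_inv_rev, hy2, inv_inv]
  have hconj2 : ∀ u : G, y * (y * u * y⁻¹) * y⁻¹ = y⁻¹ * u * y := by
    intro u
    calc y * (y * u * y⁻¹) * y⁻¹ = (y * y) * u * (y⁻¹ * y⁻¹) := by group
      _ = y⁻¹ * u * y := by rw [hy2, hyy]
  have hA₁ea : Cfsg.IsElementaryAbelian 2 A₁ := ea_of_le hA hA₁
  -- the subgroups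
  obtain ⟨U₂, hU₂def⟩ : ∃ U₂ : Subgroup G, U₂ = U ⊓ Subgroup.centralizer ({a} : Set G) :=
    ⟨_, rfl⟩
  obtain ⟨F₀, hF₀def⟩ : ∃ F₀ : Subgroup G, F₀ = U ⊓ Subgroup.centralizer (A : Set G) := ⟨_, rfl⟩
  obtain ⟨F', hF'def⟩ : ∃ F' : Subgroup G, F' = U ⊓ Subgroup.centralizer (A₁ : Set G) := ⟨_, rfl⟩
  have hmemU₂ : ∀ u : G, u ∈ U₂ ↔ u ∈ U ∧ a * u = u * a := by
    intro u; rw [hU₂def, Subgroup.mem_inf, mem_cent_singleton]
  have hmemF₀ : ∀ u : G, u ∈ F₀ ↔ u ∈ U ∧ ∀ g ∈ A, g * u = u * g := by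
    intro u; rw [hF₀def, Subgroup.mem_inf, Subgroup.mem_centralizer_iff]; rfl
  have hmemF' : ∀ u : G, u ∈ F' ↔ u ∈ U ∧ ∀ g ∈ A₁, g * u = u * g := by
    intro u; rw [hF'def, Subgroup.mem_inf, Subgroup.mem_centralizer_iff]; rfl
  have hU₂U : U₂ ≤ U := by rw [hU₂def]; exact inf_le_left
  have hF₀U : F₀ ≤ U := by rw [hF₀def]; exact inf_le_left
  have hF'U : F' ≤ U := by rw [hF'def]; exact inf_le_left
  have hF₀U₂ : F₀ ≤ U₂ := by
    intro u hu
    rw [hmemF₀] at hu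
    rw [hmemU₂]
    exact ⟨hu.1, hu.2 a ha⟩
  have hF₀F' : F₀ ≤ F' := by
    intro u hu
    rw [hmemF₀] at hu
    rw [hmemF']
    exact ⟨hu.1, fun g hg => hu.2 g (hA₁ hg)⟩
  -- conjugation commutes
  have hconj_of_comm : ∀ {g u : G}, g * u = u * g → g * u * g⁻¹ = u := by
    intro g u h; rw [h]; group
  -- S1
  have S1 : ∀ u ∈ U₂, ∀ u' ∈ U₂, u = y * u' * y⁻¹ → u = 1 := by
    intro u hu u' hu' huu
    rw [hmemU₂] at hu hu'
    have h1 : a * (y * u' * y⁻¹) * a⁻¹ = y⁻¹ * u' * y := by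
      calc a * (y * u' * y⁻¹) * a⁻¹ = (a * y * a⁻¹) * (a * u' * a⁻¹) * (a * y * a⁻¹)⁻¹ := by group
        _ = y⁻¹ * u' * y := by rw [hay, hconj_of_comm hu'.2, inv_inv]
    have h2 : a * (y * u' * y⁻¹) * a⁻¹ = y * u' * y⁻¹ := by
      rw [← huu]; exact hconj_of_comm hu.2
    have h3 : y⁻¹ * u' * y = y * u' * y⁻¹ := h1.symm.trans h2
    have h4 : y * u' * y⁻¹ = u' := by
      have e : u' = y * (y⁻¹ * u' * y) * y⁻¹ := by group
      calc y * u' * y⁻¹ = y⁻¹ * u' * y := h3.symm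
        _ = y * (y * u' * y⁻¹) * y⁻¹ := (hconj2 u').symm
        _ = y * (y⁻¹ * u' * y) * y⁻¹ := by rw [h3]
        _ = u' := e.symm
    have h5 : u' = 1 := hfix u' hu'.1 h4
    rw [huu, h5]; group
  -- the product map is injective
  have hprod : ∀ u₁ ∈ U₂, ∀ u₁' ∈ U₂, ∀ u₂ ∈ U₂, ∀ u₂' ∈ U₂,
      u₁ * (y * u₁' * y⁻¹) = u₂ * (y * u₂' * y⁻¹) → u₁ = u₂ ∧ u₁' = u₂' := by
    intro u₁ h₁ u₁' h₁' u₂ h₂ u₂' h₂' h
    have e : u₂⁻¹ * u₁ = y * (u₂' * u₁'⁻¹) * y⁻¹ := by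
      have : u₁ = u₂ * (y * u₂' * y⁻¹) * (y * u₁' * y⁻¹)⁻¹ := by rw [← h]; group
      rw [this]; group
    have h3 := S1 _ (U₂.mul_mem (U₂.inv_mem h₂) h₁) _ (U₂.mul_mem h₂' (U₂.inv_mem h₁')) e
    have h4 : u₁ = u₂ := by
      have : u₁ = u₂ * (u₂⁻¹ * u₁) := by group
      rw [this, h3, mul_one]
    refine ⟨h4, ?_⟩
    rw [h4] at h
    have h5 : y * u₁' * y⁻¹ = y * u₂' * y⁻¹ := mul_left_cancel h
    exact mul_left_cancel (mul_right_cancel h5)
  -- |U| = |U₂|²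
  have hsq1 : Nat.card U ≤ Nat.card U₂ ^ 2 := by
    rw [hU₂def]
    exact card_le_sq_fix U a ha2 (hAU a ha) hUc hU2
  let f : ↥U₂ × ↥U₂ → ↥U := fun q =>
    ⟨(q.1 : G) * (y * (q.2 : G) * y⁻¹), U.mul_mem (hU₂U q.1.2) (hyU _ (hU₂U q.2.2))⟩
  have hf : Function.Injective f := by
    rintro ⟨u₁, u₁'⟩ ⟨u₂, u₂'⟩ h
    have h1 : (u₁ : G) * (y * (u₁' : G) * y⁻¹) = (u₂ : G) * (y * (u₂' : G) * y⁻¹) :=
      congrArg (fun w : ↥U => (w : G)) h
    obtain ⟨h2, h3⟩ := hprod _ u₁.2 _ u₁'.2 _ u₂.2 _ u₂'.2 h1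
    exact Prod.ext (Subtype.ext h2) (Subtype.ext h3)
  have hsq2 : Nat.card U₂ * Nat.card U₂ ≤ Nat.card U := by
    have := Nat.card_le_card_of_injective f hf
    rwa [Nat.card_prod] at this
  have hsq : Nat.card U = Nat.card U₂ * Nat.card U₂ := by
    rw [pow_two] at hsq1
    exact le_antisymm hsq1 hsq2
  have hfsurj : Function.Surjective f := by
    have hb : Function.Bijective f := by
      apply Function.Injective.bijective_of_nat_card_le hf
      rw [Nat.card_prod, hsq]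
    exact hb.2
  -- |A| ≤ 2 |A₁|
  have hA2card : Nat.card A ≤ 2 * Nat.card A₁ := by
    let φ : ↥A → ↥A₁ × Bool := fun g =>
      if h : (g : G) ∈ A₁ then (⟨g, h⟩, true)
      else (⟨(g : G) * a, (hAA₁ g g.2).resolve_left h⟩, false)
    have hφ : Function.Injective φ := by
      intro g g' h
      by_cases h1 : (g : G) ∈ A₁ <;> by_cases h2 : (g' : G) ∈ A₁
      · simp only [φ, dif_pos h1, dif_pos h2] at h
        have := congrArg (fun q : ↥A₁ × Bool => (q.1 : G)) h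
        exact Subtype.ext this
      · simp only [φ, dif_pos h1, dif_neg h2] at h
        have := congrArg (fun q : ↥A₁ × Bool => q.2) h
        simp at this
      · simp only [φ, dif_neg h1, dif_pos h2] at h
        have := congrArg (fun q : ↥A₁ × Bool => q.2) h
        simp at this
      · simp only [φ, dif_neg h1, dif_neg h2] at h
        have h3 : (g : G) * a = (g' : G) * a := congrArg (fun q : ↥A₁ × Bool => (q.1 : G)) h
        exact Subtype.ext (mul_right_cancel h3)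
    have := Nat.card_le_card_of_injective φ hφ
    rw [Nat.card_prod, Nat.card_eq_fintype_card (α := Bool), Fintype.card_bool] at this
    omega
  have hA₁pos : 0 < Nat.card A₁ := Nat.card_pos
  have hF₀pos : 0 < Nat.card F₀ := Nat.card_pos
  -- S4 : |F₀| ≤ 2
  have hF'ea : Cfsg.IsElementaryAbelian 2 F' := ea_of_le hU hF'U
  have hF'cent : F' ≤ Subgroup.centralizer (A₁ : Set G) := by
    rw [hF'def]; exact inf_le_right
  have hB1 : Nat.card (F' ⊔ A₁ : Subgroup G) ≤ Nat.card A :=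
    hmax _ (sup_le (hF'U.trans le_sup_left) (hA₁.trans le_sup_right))
      (ea_sup hF'ea hA₁ea hF'cent)
  have hinf1 : F' ⊓ A₁ ≤ F₀ := by
    intro u hu
    obtain ⟨h1, h2⟩ := Subgroup.mem_inf.mp hu
    rw [hmemF₀]
    exact ⟨hF'U h1, fun g hg => hAc g hg u (hA₁ h2)⟩
  have hF'card : Nat.card F' ≤ 2 * Nat.card F₀ := by
    have h1 := card_mul_card_le F' A₁
    have h2 : Nat.card (F' ⊓ A₁ : Subgroup G) ≤ Nat.card F₀ :=
      Subgroup.card_le_of_le hinf1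
    have h3 : Nat.card F' * Nat.card A₁ ≤ (2 * Nat.card A₁) * Nat.card F₀ :=
      h1.trans (Nat.mul_le_mul (hB1.trans hA2card) h2)
    have h4 : Nat.card F' * Nat.card A₁ ≤ (2 * Nat.card F₀) * Nat.card A₁ := by
      calc Nat.card F' * Nat.card A₁ ≤ (2 * Nat.card A₁) * Nat.card F₀ := h3
        _ = (2 * Nat.card F₀) * Nat.card A₁ := by ring
    exact Nat.le_of_mul_le_mul_right h4 hA₁pos
  have hyF₀ : ∀ u ∈ F₀, y * u * y⁻¹ ∈ F' := by
    intro u hu
    rw [hmemF₀] at hu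
    rw [hmemF']
    refine ⟨hyU u hu.1, fun g hg => ?_⟩
    have h1 := hA₁y g hg u hu.1
    rw [hconj_of_comm (hu.2 g (hA₁ hg))] at h1
    calc g * (y * u * y⁻¹) = (g * (y * u * y⁻¹) * g⁻¹) * g := by group
      _ = (y * u * y⁻¹) * g := by rw [h1]
  have hF₀card : Nat.card F₀ ≤ 2 := by
    let f₀ : ↥F₀ × ↥F₀ → ↥F' := fun q =>
      ⟨(q.1 : G) * (y * (q.2 : G) * y⁻¹), F'.mul_mem (hF₀F' q.1.2) (hyF₀ _ q.2.2)⟩
    have hf₀ : Function.Injective f₀ := by
      rintro ⟨u₁, u₁'⟩ ⟨u₂, u₂'⟩ h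
      have h1 : (u₁ : G) * (y * (u₁' : G) * y⁻¹) = (u₂ : G) * (y * (u₂' : G) * y⁻¹) :=
        congrArg (fun w : ↥F' => (w : G)) h
      obtain ⟨h2, h3⟩ := hprod _ (hF₀U₂ u₁.2) _ (hF₀U₂ u₁'.2) _ (hF₀U₂ u₂.2) _ (hF₀U₂ u₂'.2) h1
      exact Prod.ext (Subtype.ext h2) (Subtype.ext h3)
    have h1 := Nat.card_le_card_of_injective f₀ hf₀
    rw [Nat.card_prod] at h1
    have h2 : Nat.card F₀ * Nat.card F₀ ≤ 2 * Nat.card F₀ := h1.trans hF'card
    exact Nat.le_of_mul_le_mul_right h2 hF₀pos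
  -- S5 : the offender inequality
  obtain ⟨A₀, hA₀def⟩ : ∃ A₀ : Subgroup G, A₀ = A ⊓ Subgroup.centralizer (U : Set G) := ⟨_, rfl⟩
  have hA₀A : A₀ ≤ A := by rw [hA₀def]; exact inf_le_left
  have hA₀cent : A₀ ≤ Subgroup.centralizer (U : Set G) := by rw [hA₀def]; exact inf_le_right
  have hB2 : Nat.card (U ⊔ A₀ : Subgroup G) ≤ Nat.card A :=
    hmax _ (sup_le le_sup_left (hA₀A.trans le_sup_right))
      (ea_sup hU (ea_of_le hA hA₀A) (Subgroup.le_centralizer_iff.mp hA₀cent))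
  have hinf2 : U ⊓ A₀ ≤ F₀ := by
    intro u hu
    obtain ⟨h1, h2⟩ := Subgroup.mem_inf.mp hu
    rw [hmemF₀]
    exact ⟨h1, fun g hg => hAc g hg u (hA₀A h2)⟩
  have hoff : Nat.card U * Nat.card A₀ ≤ (2 * Nat.card A₁) * 2 := by
    have h1 := card_mul_card_le U A₀
    have h2 : Nat.card (U ⊓ A₀ : Subgroup G) ≤ 2 := (Subgroup.card_le_of_le hinf2).trans hF₀card
    exact h1.trans (Nat.mul_le_mul (hB2.trans hA2card) h2)
  -- S6
  by_cases hU₂bot : U₂ = ⊥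
  · rw [hsq, hU₂bot, Subgroup.card_bot]
    norm_num
  -- a nontrivial fixed point
  have hA₁2 : IsPGroup 2 A₁ := ea_isPGroup2 hA₁ea
  have hU₂ea : Cfsg.IsElementaryAbelian 2 U₂ := ea_of_le hU hU₂U
  have hA₁U₂ : ∀ e ∈ A₁, ∀ w ∈ U₂, e * w * e⁻¹ ∈ U₂ := by
    intro e he w hw
    rw [hmemU₂] at hw ⊢
    refine ⟨hAU e (hA₁ he) w hw.1, ?_⟩
    have h1 : Commute a e := hAc a ha e (hA₁ he)
    have h2 : Commute a w := hw.2
    exact ((h1.mul_right h2).mul_right h1.inv_right).eq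
  have hfixF₀ : ∀ w ∈ U₂, (∀ e ∈ A₁, e * w = w * e) → w ∈ F₀ := by
    intro w hw hwe
    rw [hmemU₂] at hw
    rw [hmemF₀]
    refine ⟨hw.1, fun g hg => ?_⟩
    rcases hAA₁ g hg with h | h
    · exact hwe g h
    · have h1 := hwe _ h
      have h2 : a⁻¹ * w = w * a⁻¹ := by rw [hainv]; exact hw.2
      calc g * w = (g * a) * (a⁻¹ * w) := by group
        _ = (g * a) * (w * a⁻¹) := by rw [h2]
        _ = ((g * a) * w) * a⁻¹ := by group
        _ = (w * (g * a)) * a⁻¹ := by rw [h1]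
        _ = w * g := by group
  obtain ⟨u₀, hu₀U₂, hu₀1, hu₀fix⟩ :=
    Cfsg.Agent.Lib.Helper90.TTCore.exists_fixed_ne_one U₂ A₁ (ea_isPGroup2 hU₂ea) hA₁2
      (Cfsg.Agent.Lib.Helper49.SubnPair.le_normalizer_of_conj_mem hA₁U₂) hU₂bot
  have hu₀F₀ : u₀ ∈ F₀ := hfixF₀ u₀ hu₀U₂ hu₀fix
  have hF₀two : Nat.card F₀ = 2 := by
    apply le_antisymm hF₀card
    have hnt : Nontrivial ↥F₀ := ⟨⟨⟨u₀, hu₀F₀⟩, 1, fun h => hu₀1 (congrArg Subtype.val h)⟩⟩
    exact Finite.one_lt_card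
  have hF₀elts : ∀ w ∈ F₀, w ≠ 1 → w = u₀ := by
    intro w hw hw1
    obtain ⟨b, -, hb⟩ := (Nat.card_eq_two_iff' (1 : ↥F₀)).mp hF₀two
    have h1 := hb ⟨w, hw⟩ (fun h => hw1 (congrArg Subtype.val h))
    have h2 := hb ⟨u₀, hu₀F₀⟩ (fun h => hu₀1 (congrArg Subtype.val h))
    exact congrArg Subtype.val (h1.trans h2.symm)
  -- the counting lemma
  have hCL := card_le_of_simple_socle A₁ U₂ u₀ (ea_comm hU₂ea) hA₁U₂ (ea_comm hA₁ea) hu₀U₂ hu₀1
    (fun e he => hconj_of_comm (hu₀fix e he))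
    (by
      intro Y hYU hY1 hYinv
      obtain ⟨w, hwY, hw1, hwfix⟩ :=
        Cfsg.Agent.Lib.Helper90.TTCore.exists_fixed_ne_one Y A₁
          (ea_isPGroup2 (ea_of_le hU₂ea hYU)) hA₁2
          (Cfsg.Agent.Lib.Helper49.SubnPair.le_normalizer_of_conj_mem hYinv) hY1
      have := hF₀elts w (hfixF₀ w (hYU hwY) hwfix) hw1
      rw [← this]; exact hwY)
  -- S8
  have hS8 : A₁ ⊓ Subgroup.centralizer (U₂ : Set G) ≤ A₀ := by
    intro g hg
    obtain ⟨hg1, hg2⟩ := Subgroup.mem_inf.mp hg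
    rw [hA₀def]
    refine Subgroup.mem_inf.mpr ⟨hA₁ hg1, ?_⟩
    rw [Subgroup.mem_centralizer_iff]
    intro u hu
    obtain ⟨⟨u₁, u₁'⟩, hq⟩ := hfsurj ⟨u, hu⟩
    have hq' : (u₁ : G) * (y * (u₁' : G) * y⁻¹) = u := congrArg (fun w : ↥U => (w : G)) hq
    have h1 : g * (u₁ : G) * g⁻¹ = u₁ :=
      hconj_of_comm ((Subgroup.mem_centralizer_iff.mp hg2) _ u₁.2).symm
    have h2 : g * (u₁' : G) * g⁻¹ = u₁' :=
      hconj_of_comm ((Subgroup.mem_centralizer_iff.mp hg2) _ u₁'.2).symm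
    have h3 := hA₁y g hg1 _ (hU₂U u₁'.2)
    rw [h2] at h3
    have h4 : g * u * g⁻¹ = u := by
      rw [← hq']
      calc g * ((u₁ : G) * (y * (u₁' : G) * y⁻¹)) * g⁻¹
          = (g * (u₁ : G) * g⁻¹) * (g * (y * (u₁' : G) * y⁻¹) * g⁻¹) := by group
        _ = (u₁ : G) * (y * (u₁' : G) * y⁻¹) := by rw [h1, h3]
    calc u * g = (g * u * g⁻¹) * g := by rw [h4]
      _ = g * u := by group
  have hc8 : Nat.card (A₁ ⊓ Subgroup.centralizer (U₂ : Set G) : Subgroup G) ≤ Nat.card A₀ :=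
    Subgroup.card_le_of_le hS8
  have hcpos : 0 < Nat.card (A₁ ⊓ Subgroup.centralizer (U₂ : Set G) : Subgroup G) :=
    Nat.card_pos
  -- arithmetic
  obtain ⟨m, hm⟩ : ∃ m, m = Nat.card U₂ := ⟨_, rfl⟩
  obtain ⟨c, hc⟩ : ∃ c, c = Nat.card (A₁ ⊓ Subgroup.centralizer (U₂ : Set G) : Subgroup G) :=
    ⟨_, rfl⟩
  obtain ⟨α, hα⟩ : ∃ α, α = Nat.card A₁ := ⟨_, rfl⟩
  obtain ⟨c₀, hc₀⟩ : ∃ c₀, c₀ = Nat.card A₀ := ⟨_, rfl⟩
  rw [hsq, ← hm, ← hα, ← hc₀] at hoff
  rw [← hm, ← hα, ← hc] at hCL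
  rw [← hc, ← hc₀] at hc8
  rw [← hc] at hcpos
  rw [hsq, ← hm]
  have h1 : m * m * c ≤ 4 * α := by
    calc m * m * c ≤ m * m * c₀ := Nat.mul_le_mul_left _ hc8
      _ ≤ 2 * α * 2 := hoff
      _ = 4 * α := by ring
  have h2 : c * (m * m + 4) ≤ c * (4 * m) := by
    have : m * m * c + 4 * c ≤ 4 * (c * m) := by
      calc m * m * c + 4 * c ≤ 4 * α + 4 * c := Nat.add_le_add_right h1 _
        _ = 4 * (α + c) := by ring
        _ ≤ 4 * (c * m) := Nat.mul_le_mul_left _ hCL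
    calc c * (m * m + 4) = m * m * c + 4 * c := by ring
      _ ≤ 4 * (c * m) := this
      _ = c * (4 * m) := by ring
  have h3 : m * m + 4 ≤ 4 * m := Nat.le_of_mul_le_mul_left h2 hcpos
  have h4 : m ≤ 4 := by
    by_contra hlt
    push Not at hlt
    nlinarith
  interval_cases m <;> omega

end Main

end Cfsg.Agent.Lib.Helper48.JCount
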