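import Mathlib
import Cfsg.Agent.Lib.Helper44.MCentStmt

set_option autoImplicit false

/-! S2716 piece [EMB]: a field of the right size embeds onto the fixed field. -/

namespace Cfsg.Agent.Lib.Helper48.MCentEMB

open Cfsg.Agent.Lib.Helper43.H90Fin

universe u v

theorem main : Cfsg.Agent.Lib.Helper44.MCentStmt.ExistsEmb.{u, v} := by
  intro F₀ _ _ F _ _ σ hcard
  classical
  have : Fintype ↥(fixF σ) := Fintype.ofFinite _
  have hc : Fintype.card F₀ = Fintype.card ↥(fixF σ) := by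
    rw [hcard, Nat.card_eq_fintype_card]
  let e : F₀ ≃+* ↥(fixF σ) := FiniteField.ringEquivOfCardEq hc
  refine ⟨(fixF σ).subtype.comp (e : F₀ →+* ↥(fixF σ)), ?_⟩
  intro y
  constructor
  · intro hy
    have hy' : y ∈ fixF σ := (mem_fixF σ y).2 hy
    refine ⟨e.symm ⟨y, hy'⟩, ?_⟩
    simp
  · rintro ⟨y₀, rfl⟩
    have : ((e y₀ : ↥(fixF σ)) : F) ∈ fixF σ := (e y₀).2
    simpa using (mem_fixF σ _).1 this

end Cfsg.Agent.Lib.Helper48.MCentEMB
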