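import Mathlib
import Cfsg.Agent.Lib.Helper44.MCentStmt

set_option autoImplicit false

/-! S2716 piece [SQ]: square classes are represented over the fixed field of an odd-order
automorphism. -/

namespace Cfsg.Agent.Lib.Helper48.MCentSQ

open Cfsg.Agent.Lib.Helper43.H90Fin

universe u

theorem pow_apply_neg {F : Type u} [Field F] (σ : RingAut F) (c : F) (h : σ c = -c) (n : ℕ) :
    (σ ^ n) c = (-1) ^ n * c := by
  induction n with
  | zero => simp
  | succ k ih =>
    rw [pow_succ, RingAut.mul_apply, h, map_neg, ih]
    ring

theorem main : Cfsg.Agent.Lib.Helper44.MCentStmt.SqClass.{u} := by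
  intro F _ _ h2 σ hodd y hy
  classical
  by_cases hsq : IsSquare y
  · obtain ⟨c, hc⟩ := hsq
    have hc0 : c ≠ 0 := by
      rintro rfl
      exact hy (by simpa using hc)
    exact ⟨1, c, one_ne_zero, hc0, map_one σ, by rw [hc]; ring⟩
  · -- a non-square of the fixed field
    have : Fintype ↥(fixF σ) := Fintype.ofFinite _
    have h2E : (2 : ↥(fixF σ)) ≠ 0 := by
      intro h
      apply h2
      have h' := congrArg (Subfield.subtype (fixF σ)) h
      rw [map_ofNat, map_zero] at h'
      exact h'
    have hchar : ringChar ↥(fixF σ) ≠ 2 := by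
      intro h
      have : CharP ↥(fixF σ) 2 := by
        have := ringChar.charP ↥(fixF σ)
        rwa [h] at this
      apply h2E
      have := CharP.cast_eq_zero ↥(fixF σ) 2
      simpa using this
    obtain ⟨e, he⟩ := FiniteField.exists_nonsquare hchar
    have heF : σ (e : F) = e := (mem_fixF σ _).1 e.2
    have he0 : (e : F) ≠ 0 := by
      intro h
      apply he
      refine ⟨0, ?_⟩
      apply Subtype.ext
      simpa using h
    -- `e` is a non-square of `F`
    have heF_ns : ¬ IsSquare (e : F) := by
      rintro ⟨c, hc⟩
      have hc0 : c ≠ 0 := by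
        rintro rfl
        exact he0 (by simpa using hc)
      have h1 : σ c * σ c = c * c := by
        rw [← map_mul, ← hc, heF]
      have h3 : σ c = c ∨ σ c = -c := mul_self_eq_mul_self_iff.1 h1
      rcases h3 with h3 | h3
      · apply he
        refine ⟨⟨c, (mem_fixF σ c).2 h3⟩, ?_⟩
        apply Subtype.ext
        simpa using hc
      · have h4 := pow_apply_neg σ c h3 (orderOf σ)
        rw [pow_orderOf_eq_one, Odd.neg_one_pow hodd] at h4
        have h5 : (2 : F) * c = 0 := by
          have : c = -c := by simpa using h4
          linear_combination this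
        rcases mul_eq_zero.1 h5 with h6 | h6
        · exact h2 h6
        · exact hc0 h6
    have hcharF : ringChar F ≠ 2 := by
      intro h
      have : CharP F 2 := by
        have := ringChar.charP F
        rwa [h] at this
      apply h2
      have := CharP.cast_eq_zero F 2
      simpa using this
    have hχy : quadraticChar F y = -1 := (quadraticChar_neg_one_iff_not_isSquare).2 hsq
    have hχe : quadraticChar F (e : F) = -1 := (quadraticChar_neg_one_iff_not_isSquare).2 heF_ns
    have hχ : quadraticChar F (y * (e : F)⁻¹) = 1 := by
      have hinv : quadraticChar F ((e : F)⁻¹) = -1 := by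
        have h1 : quadraticChar F ((e : F)⁻¹) * quadraticChar F (e : F) = 1 := by
          rw [← map_mul, inv_mul_cancel₀ he0, map_one]
        rw [hχe] at h1
        linarith
      rw [map_mul, hχy, hinv]
      norm_num
    have hne : y * (e : F)⁻¹ ≠ 0 := mul_ne_zero hy (inv_ne_zero he0)
    obtain ⟨c, hc⟩ := (quadraticChar_one_iff_isSquare hne).1 hχ
    have hc0 : c ≠ 0 := by
      rintro rfl
      exact hne (by simpa using hc)
    refine ⟨(e : F), c, he0, hc0, heF, ?_⟩
    have : y = (e : F) * (y * (e : F)⁻¹) := by
      field_simp
    rw [this, hc]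
    ring

end Cfsg.Agent.Lib.Helper48.MCentSQ
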