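import Mathlib
import Cfsg.Agent.Lib.Helper44.OFldStmt
import Cfsg.Agent.Lib.Helper45.SingClass
import Cfsg.Agent.Lib.Helper44.MaxTS2
import Cfsg.Agent.Lib.Helper44.MaxTS3

set_option autoImplicit false

/-! Piece [A4] of S2736: the class character `ε` of the similarity group of the plus form. -/

namespace Cfsg.Agent.Lib.Helper48.OFldA4

open Matrix Module QuadraticMap
open Cfsg.Agent.Lib.Helper44.OFld0 Cfsg.Agent.Lib.Helper44.OFld1 Cfsg.Agent.Lib.Helper44.MaxTS
  Cfsg.Agent.Lib.Helper44.NegPairs Cfsg.Agent.Lib.Helper44.QSpace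
  Cfsg.Agent.Lib.Helper44.MaxTS2 Cfsg.Agent.Lib.Helper44.MaxTS3
  Cfsg.Agent.Lib.Helper44.OGroup Cfsg.Agent.Lib.Helper44.OMat
  Cfsg.Agent.Lib.Helper45.SingClass

universe u

variable {F : Type u} [Field F] {m : ℕ}

/-- the standard maximal totally singular subspace -/
abbrev stdU (m : ℕ) (F : Type u) [Field F] : Submodule F (Fin m ⊕ Fin m → F) :=
  LinearMap.ker (LinearMap.funLeft F F (Sum.inr : Fin m → Fin m ⊕ Fin m))

/-- the matrix of a similarity -/
abbrev mat (g : GO m F) : Matrix (Fin m ⊕ Fin m) (Fin m ⊕ Fin m) F :=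
  ((g : GL (Fin m ⊕ Fin m) F) : Matrix (Fin m ⊕ Fin m) (Fin m ⊕ Fin m) F)

/-- the codimension of `U₀ ∩ g U₀` in `U₀` -/
noncomputable def codim (g : GO m F) : ℕ :=
  m - finrank F ↥(stdU m F ⊓ (stdU m F).map (Matrix.toLin' (mat g)))

theorem sim (g : GO m F) : ∃ c : F, ∀ v,
    plusQ m F (glEquiv (g : GL (Fin m ⊕ Fin m) F) v) = c * plusQ m F v := by
  obtain ⟨c, hc⟩ := g.2
  exact ⟨c, fun v => hc v⟩

theorem toLin_mat (g : GO m F) :
    Matrix.toLin' (mat g) =
      ((glEquiv (g : GL (Fin m ⊕ Fin m) F) : (Fin m ⊕ Fin m → F) ≃ₗ[F] (Fin m ⊕ Fin m → F)) :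
        (Fin m ⊕ Fin m → F) →ₗ[F] (Fin m ⊕ Fin m → F)) :=
  toLin'_eq _

theorem par_aux (g : GO m F) {U : Submodule F (Fin m ⊕ Fin m → F)}
    (hU : TS (plusQ m F) m U) :
    (m - finrank F ↥(U ⊓ U.map (Matrix.toLin' (mat g)))) % 2 = codim g % 2 := by
  obtain ⟨c, hc⟩ := sim g
  have h0 : TS (plusQ m F) m (stdU m F) := ts_std (F := F) m
  have h := parity_const (sep_plusQ (F := F) m) (finrank_plus m) hc h0 hU
  unfold codim
  rw [toLin_mat]
  exact h

theorem codim_one : codim (1 : GO m F) = 0 := by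
  unfold codim
  have e : (stdU m F).map (Matrix.toLin' (mat (1 : GO m F))) = stdU m F := by
    have : mat (1 : GO m F) = 1 := rfl
    rw [this, Matrix.toLin'_one]
    exact Submodule.map_id _
  rw [e, inf_idem, (ts_std (F := F) m).1]
  exact Nat.sub_self m

theorem codim_mul (g h : GO m F) : codim (g * h) % 2 = (codim g + codim h) % 2 := by
  obtain ⟨c, hc⟩ := sim g
  obtain ⟨c', hc'⟩ := sim h
  have h0 : TS (plusQ m F) m (stdU m F) := ts_std (F := F) m
  have hgU := ts_map_sim hc h0
  have hhU := ts_map_sim hc' h0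
  have hghU := ts_map_sim hc hhU
  have h1 := ts_parity (sep_plusQ (F := F) m) (finrank_plus m) _ hgU hghU h0 rfl
  rw [finrank_map_inf] at h1
  have e : (stdU m F).map (Matrix.toLin' (mat (g * h))) =
      ((stdU m F).map (Matrix.toLin' (mat h))).map (Matrix.toLin' (mat g)) := by
    have : mat (g * h) = mat g * mat h := rfl
    rw [this, Matrix.toLin'_mul, Submodule.map_comp]
  unfold codim
  rw [e, toLin_mat g, toLin_mat h]
  omega

/-- the class character -/
noncomputable def eps (m : ℕ) (F : Type u) [Field F] : GO m F →* Multiplicative (ZMod 2) where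
  toFun g := Multiplicative.ofAdd ((codim g : ℕ) : ZMod 2)
  map_one' := by
    rw [codim_one]
    rfl
  map_mul' g h := by
    rw [← ofAdd_add, ← Nat.cast_add]
    congr 1
    rw [ZMod.natCast_eq_natCast_iff']
    exact codim_mul g h

theorem eps_eq_one_iff (g : GO m F) : eps m F g = 1 ↔ Even (codim g) := by
  show Multiplicative.ofAdd ((codim g : ℕ) : ZMod 2) = 1 ↔ _
  rw [ofAdd_eq_one, ZMod.natCast_eq_zero_iff_even]

theorem isEps [Fintype F] (m : ℕ) : IsEps (eps m F) := by
  have h0 : TS (plusQ m F) m (stdU m F) := ts_std (F := F) m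
  refine ⟨?_, ?_, ?_, ?_, ?_⟩
  · -- pres
    intro g
    rw [eps_eq_one_iff]
    obtain ⟨c, hc⟩ := g.2
    have hV : Fintype.card (Fin m ⊕ Fin m) = 2 * m := by
      rw [Fintype.card_sum, Fintype.card_fin]; ring
    have h := preserves_iff (sep_plusQ (F := F) m) hV h0 (g : GL (Fin m ⊕ Fin m) F)
      (c := (c : F)) (fun v => hc v)
    exact h.symm
  · -- map
    intro σ g
    have key : codim (mapGO σ g) = codim g := by
      unfold codim
      have e1 : (stdU m F).map (Matrix.toLin' (mat (mapGO σ g))) =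
          sigU σ ((stdU m F).map (Matrix.toLin' (mat g))) := by
        rw [sigU_map, sigU_std]
        rfl
      have e2 : stdU m F ⊓ sigU σ ((stdU m F).map (Matrix.toLin' (mat g))) =
          sigU σ (stdU m F ⊓ (stdU m F).map (Matrix.toLin' (mat g))) := by
        rw [sigU_inf, sigU_std]
      rw [e1, e2, finrank_sigU]
    show Multiplicative.ofAdd ((codim (mapGO σ g) : ℕ) : ZMod 2) =
      Multiplicative.ofAdd ((codim g : ℕ) : ZMod 2)
    rw [key]
  · -- scalar
    rintro g ⟨c, hc⟩
    rw [eps_eq_one_iff]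
    have hle : (stdU m F).map (Matrix.toLin' (mat g)) ≤ stdU m F := by
      rintro _ ⟨u, hu, rfl⟩
      rw [Matrix.toLin'_apply, hc u]
      exact Submodule.smul_mem _ _ hu
    have hfr : finrank F ↥((stdU m F).map (Matrix.toLin' (mat g))) = m := by
      rw [toLin_mat, LinearEquiv.finrank_map_eq]
      exact h0.1
    have : codim g = 0 := by
      unfold codim
      rw [inf_eq_right.mpr hle, hfr]
      exact Nat.sub_self m
    rw [this]
    exact Even.zero
  · -- refl
    intro v hv g hg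
    rw [Ne, eps_eq_one_iff]
    have hv' : plusQ m F v ≠ 0 := hv
    have h := adjacent_refl (sep_plusQ (F := F) m) (finrank_plus m) h0 hv'
    have e : Matrix.toLin' (mat g) =
        ((reflE (plusQ m F) v : (Fin m ⊕ Fin m → F) ≃ₗ[F] (Fin m ⊕ Fin m → F)) :
          (Fin m ⊕ Fin m → F) →ₗ[F] (Fin m ⊕ Fin m → F)) := by
      apply LinearMap.ext
      intro x
      rw [Matrix.toLin'_apply]
      show mat g *ᵥ x = reflE (plusQ m F) v x
      rw [show mat g = Cfsg.reflectionMatrix (Cfsg.quadFormPlus m F) v from hg]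
      exact reflection_mulVec (plusQ m F) v x
    have : codim g = 1 := by
      unfold codim
      rw [e]
      omega
    rw [this]
    decide
  · -- par
    intro g U hU
    rw [eps_eq_one_iff, Nat.even_iff, Nat.even_iff, par_aux g hU]

theorem main : Cfsg.Agent.Lib.Helper44.OFldStmt.ExistsEps.{u} := by
  intro F _ _ m _
  exact ⟨eps m F, isEps m⟩

end Cfsg.Agent.Lib.Helper48.OFldA4
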