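import Mathlib
import Cfsg.Agent.Lib.Helper41.OMStmt
import Cfsg.Agent.Lib.Helper77.SpFField

set_option maxHeartbeats 400000

/-! # S5978, piece KDIMG (adapted from Helper77.SpFKDIM) -/

namespace Cfsg.Agent.Lib.Helper48.OMKDIMG

open Matrix
open Cfsg.Agent.Lib.Helper41.OMStmt

universe u

theorem main : KDimG.{u} := by
  intro F _ ι _ _ k K hK U hU
  exact Cfsg.Agent.Lib.Helper77.SpFField.dvd_finrank K hK U hU

end Cfsg.Agent.Lib.Helper48.OMKDIMG
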