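import Cfsg.Agent.Lib.Helper18.ReeMultStmt

/-!
S2113 piece LCONJH: conjugation of `lft s₁ u v` by a lift of `e s`.
-/

set_option autoImplicit false

namespace Cfsg.Agent.Lib.Helper48.ReeMultLCONJH

open Cfsg.Agent.Lib.Helper18 Cfsg.Agent.Lib.Helper18.ReeMultStmt
open scoped commutatorElement

universe u v w

theorem main : LCONJH.{u, v, w} := by
  intro Γ _ G _ K _ _ m φ x e σ E s₁ hs₁ γ s hs hγ u v
  unfold lft
  rw [conj_cm σ E.surj E.cen, hγ]
  have h1 : e s * e s₁ * (e s)⁻¹ = e s₁ := by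
    have a1 := E.par.e_mul s s₁ hs hs₁
    have a2 := E.par.e_mul s₁ s hs₁ hs
    rw [mul_comm s₁ s] at a2
    rw [← a1, a2, mul_inv_cancel_right]
  have h2 : ∀ u' v', e s * x 0 u' v' * (e s)⁻¹ = x 0 (φ s ^ 3 / s * u') (s * v') := by
    intro u' v'
    rw [E.par.e_x s hs, mul_inv_cancel_right, mul_zero]
  rw [h1, h2, mul_div_assoc, mul_div_assoc]

end Cfsg.Agent.Lib.Helper48.ReeMultLCONJH
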