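import Cfsg.Agent.Lib.Helper47.Syl
import Cfsg.Agent.Lib.Helper49.SubnPair
import Cfsg.Agent.Lib.Helper62.Wielandt
import Mathlib

/-! Subnormal subgroups acting with order three on an elementary abelian `2`-group `V` with a
commutator of order four on which they have no fixed points: any two of them have equal
commutators on `V`, or each centralizes the commutator of the other. -/

set_option autoImplicit false
set_option linter.unusedSectionVars false
set_option linter.unusedVariables false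
set_option linter.style.haveILetI false

namespace Cfsg.Agent.Lib.Helper48.Refl

open Cfsg.Agent.Lib.Helper47.Syl
open scoped commutatorElement Pointwise

variable {G : Type*} [Group G]

/-- The hypotheses on `K ≤ Y` acting on `V`. -/
structure RData (V Y K : Subgroup G) : Prop where
  hVab : ∀ a ∈ V, ∀ b ∈ V, a * b = b * a
  hV2 : ∀ a ∈ V, a * a = 1
  hYV : Y ≤ Subgroup.normalizer (V : Set G)
  hKY : K ≤ Y
  hsub : (K.subgroupOf Y).IsSubnormal
  hW4 : Nat.card (⁅V, K⁆ : Subgroup G) = 4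
  hfix : ∀ w ∈ (⁅V, K⁆ : Subgroup G), (∀ k ∈ K, k * w = w * k) → w = 1
  hcube : ∀ k ∈ K, ∀ v ∈ V, (k * k * k) * v = v * (k * k * k)

theorem smul_eq_map (y : G) (K : Subgroup G) :
    MulAut.conj y • K = K.map (MulAut.conj y).toMonoidHom := rfl

theorem comm_map_conj {V K : Subgroup G} {y : G} (hy : y ∈ Subgroup.normalizer (V : Set G)) :
    (⁅V, K.map (MulAut.conj y).toMonoidHom⁆ : Subgroup G) =
      (⁅V, K⁆ : Subgroup G).map (MulAut.conj y).toMonoidHom := by
  rw [Subgroup.map_commutator, map_conj_eq_of_mem_normalizer hy]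

namespace RData

variable {V Y K : Subgroup G}

theorem W_le (h : RData V Y K) : (⁅V, K⁆ : Subgroup G) ≤ V :=
  Cfsg.Agent.Lib.Helper49.SubnPair.commutator_le_left_of_le_normalizer (h.hKY.trans h.hYV)

theorem K_norm_W (h : RData V Y K) :
    K ≤ Subgroup.normalizer ((⁅V, K⁆ : Subgroup G) : Set G) := fun k hk =>
  Cfsg.Agent.Lib.Helper49.SubnPair.mem_normalizer_commutator (h.hYV (h.hKY hk))
    (Subgroup.le_normalizer hk)

theorem conj [Finite G] (h : RData V Y K) {y : G} (hy : y ∈ Y) :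
    RData V Y (K.map (MulAut.conj y).toMonoidHom) := by
  have hyV : y ∈ Subgroup.normalizer (V : Set G) := h.hYV hy
  have hcomm := comm_map_conj (K := K) hyV
  refine ⟨h.hVab, h.hV2, h.hYV, ?_, ?_, ?_, ?_, ?_⟩
  · rintro x ⟨k, hk, rfl⟩
    simp only [MulEquiv.coe_toMonoidHom, MulAut.conj_apply]
    exact Y.mul_mem (Y.mul_mem hy (h.hKY hk)) (Y.inv_mem hy)
  · have h1 := Cfsg.Agent.Lib.Helper62.Wielandt.subgroupOf_smul_isSubnormal (MulAut.conj y) h.hsub
    have h2 : MulAut.conj y • Y = Y :=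
      (Cfsg.Agent.Lib.Helper62.Wielandt.conj_smul_eq_iff y Y).mpr (Subgroup.le_normalizer hy)
    rw [h2] at h1
    exact h1
  · rw [hcomm, card_map_conj]
    exact h.hW4
  · intro w hw hfix
    rw [hcomm, mem_map_conj] at hw
    have h1 : y⁻¹ * w * y = 1 := by
      apply h.hfix _ hw
      intro k hk
      have h2 := hfix (y * k * y⁻¹) (conj_mem_map_conj hk)
      calc k * (y⁻¹ * w * y) = y⁻¹ * ((y * k * y⁻¹) * w) * y := by group
        _ = y⁻¹ * (w * (y * k * y⁻¹)) * y := by rw [h2]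
        _ = y⁻¹ * w * y * k := by group
    calc w = y * (y⁻¹ * w * y) * y⁻¹ := by group
      _ = 1 := by rw [h1]; group
  · rintro x ⟨k, hk, rfl⟩ v hv
    simp only [MulEquiv.coe_toMonoidHom, MulAut.conj_apply]
    have hv' : y⁻¹ * v * y ∈ V := conj_mem_of_mem_normalizer' hyV hv
    have h2 := h.hcube k hk _ hv'
    calc y * k * y⁻¹ * (y * k * y⁻¹) * (y * k * y⁻¹) * v
        = y * ((k * k * k) * (y⁻¹ * v * y)) * y⁻¹ := by group
      _ = y * ((y⁻¹ * v * y) * (k * k * k)) * y⁻¹ := by rw [h2]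
      _ = v * (y * k * y⁻¹ * (y * k * y⁻¹) * (y * k * y⁻¹)) := by group

/-- `K` acts irreducibly on `[V, K]`. -/
theorem irr [Finite G] (h : RData V Y K) {X : Subgroup G} (hX : X ≤ (⁅V, K⁆ : Subgroup G))
    (hN : K ≤ Subgroup.normalizer (X : Set G)) : X = ⊥ ∨ X = (⁅V, K⁆ : Subgroup G) := by
  have hdvd : Nat.card X ∣ 4 := h.hW4 ▸ Subgroup.card_dvd_of_le hX
  have hle : Nat.card X ≤ 4 := Nat.le_of_dvd (by norm_num) hdvd
  have hpos : 0 < Nat.card X := Nat.card_pos
  have hcases : Nat.card X = 1 ∨ Nat.card X = 2 ∨ Nat.card X = 4 := by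
    interval_cases (Nat.card X) <;> simp_all
  rcases hcases with h1 | h2 | h4
  · left
    exact Subgroup.eq_bot_of_card_eq _ h1
  · exfalso
    obtain ⟨u, hu1, huniq⟩ := (Nat.card_eq_two_iff' (1 : X)).mp h2
    have hu1' : (u : G) ≠ 1 := fun hh => hu1 (Subtype.ext hh)
    apply hu1'
    apply h.hfix _ (hX u.2)
    intro k hk
    have h3 : k * (u : G) * k⁻¹ ∈ X := conj_mem_of_mem_normalizer (hN hk) u.2
    have h4 : (⟨k * (u : G) * k⁻¹, h3⟩ : X) = u := by
      apply huniq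
      intro hh
      have h5 : k * (u : G) * k⁻¹ = 1 := congrArg Subtype.val hh
      apply hu1'
      calc (u : G) = k⁻¹ * (k * (u : G) * k⁻¹) * k := by group
        _ = 1 := by rw [h5]; group
    have h5 : k * (u : G) * k⁻¹ = u := congrArg Subtype.val h4
    calc k * (u : G) = (k * (u : G) * k⁻¹) * k := by group
      _ = u * k := by rw [h5]
  · right
    exact Subgroup.eq_of_le_of_card_ge hX (by rw [h4, h.hW4])

end RData

theorem mem_normalizer_of_comm {W : Subgroup G} {g : G} (h : ∀ w ∈ W, g * w = w * g) :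
    g ∈ Subgroup.normalizer (W : Set G) := by
  rw [Subgroup.mem_normalizer_iff]
  intro w
  constructor
  · intro hw
    have : g * w * g⁻¹ = w := by rw [h w hw]; group
    rw [this]; exact hw
  · intro hw
    have h1 := h _ hw
    have : g * w * g⁻¹ = w := by
      calc g * w * g⁻¹ = g⁻¹ * (g * (g * w * g⁻¹)) := by group
        _ = g⁻¹ * ((g * w * g⁻¹) * g) := by rw [h1]
        _ = w := by group
    rw [← this]; exact hw

/-- If `K₂` normalizes `[V, K₁]`, the commutators are equal or `K₂` centralizes `[V, K₁]`. -/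
theorem caseA [Finite G] {V Y K₁ K₂ : Subgroup G} (h₁ : RData V Y K₁) (h₂ : RData V Y K₂)
    (hN : K₂ ≤ Subgroup.normalizer ((⁅V, K₁⁆ : Subgroup G) : Set G)) :
    (⁅V, K₁⁆ : Subgroup G) = ⁅V, K₂⁆ ∨
      K₂ ≤ Subgroup.centralizer ((⁅V, K₁⁆ : Subgroup G) : Set G) := by
  have hX : (⁅V, K₁⁆ ⊓ ⁅V, K₂⁆ : Subgroup G) ≤ ⁅V, K₂⁆ := inf_le_right
  have hNX : K₂ ≤ Subgroup.normalizer ((⁅V, K₁⁆ ⊓ ⁅V, K₂⁆ : Subgroup G) : Set G) := by
    apply Cfsg.Agent.Lib.Helper49.SubnPair.le_normalizer_of_conj_mem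
    intro e he w hw
    exact ⟨conj_mem_of_mem_normalizer (hN he) hw.1,
      conj_mem_of_mem_normalizer (h₂.K_norm_W he) hw.2⟩
  rcases h₂.irr hX hNX with hb | he
  · right
    intro k hk
    rw [Subgroup.mem_centralizer_iff]
    intro w hw
    have h1 : ⁅w, k⁆ ∈ (⁅V, K₁⁆ ⊓ ⁅V, K₂⁆ : Subgroup G) := by
      refine ⟨?_, Subgroup.commutator_mem_commutator (h₁.W_le hw) hk⟩
      rw [commutatorElement_def]
      have h3 := conj_mem_of_mem_normalizer (hN hk) (inv_mem hw)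
      have h2 : w * k * w⁻¹ * k⁻¹ = w * (k * w⁻¹ * k⁻¹) := by group
      rw [h2]
      exact mul_mem hw h3
    rw [hb, Subgroup.mem_bot, commutatorElement_eq_one_iff_mul_comm] at h1
    exact h1
  · left
    have hle : (⁅V, K₂⁆ : Subgroup G) ≤ ⁅V, K₁⁆ := by
      rw [← he]; exact inf_le_left
    exact (Subgroup.eq_of_le_of_card_ge hle (by rw [h₁.hW4, h₂.hW4])).symm

theorem fix_of_conj_cent [Finite G] {V Y K : Subgroup G} (h : RData V Y K) {e : G}
    (hC : K.map (MulAut.conj e).toMonoidHom ≤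
      Subgroup.centralizer ((⁅V, K⁆ : Subgroup G) : Set G))
    {u : G} (hu : u ∈ (⁅V, K⁆ : Subgroup G)) (hcomm : e * u = u * e) : u = 1 := by
  apply h.hfix u hu
  intro k hk
  have h1 := (Subgroup.mem_centralizer_iff.mp (hC (conj_mem_map_conj (g := e) hk))) u hu
  calc k * u = e⁻¹ * ((e * k * e⁻¹) * (e * u)) := by group
    _ = e⁻¹ * ((e * k * e⁻¹) * (u * e)) := by rw [hcomm]
    _ = e⁻¹ * ((e * k * e⁻¹ * u) * e) := by group
    _ = e⁻¹ * ((u * (e * k * e⁻¹)) * e) := by rw [h1]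
    _ = e⁻¹ * (u * e) * k := by group
    _ = e⁻¹ * (e * u) * k := by rw [hcomm]
    _ = u * k := by group

/-- If `d ∈ K₂` fixes no nontrivial element of `[V, K₁]`, then every element of `[V, K₂]` is a
commutator `w (d w d⁻¹)` with `w ∈ [V, K₁]`. -/
theorem surj [Finite G] {V Y K₁ K₂ : Subgroup G} (h₁ : RData V Y K₁) (h₂ : RData V Y K₂) {d : G}
    (hd : d ∈ K₂) (hfix : ∀ u ∈ (⁅V, K₁⁆ : Subgroup G), d * u = u * d → u = 1) :
    ∀ w' ∈ (⁅V, K₂⁆ : Subgroup G), ∃ w ∈ (⁅V, K₁⁆ : Subgroup G), w' = w * (d * w * d⁻¹) := by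
  have hdV : d ∈ Subgroup.normalizer (V : Set G) := h₂.hYV (h₂.hKY hd)
  have hinv : ∀ v ∈ V, v⁻¹ = v := fun v hv => inv_eq_of_mul_eq_one_left (h₁.hV2 v hv)
  have hmem : ∀ w ∈ (⁅V, K₁⁆ : Subgroup G), w * (d * w * d⁻¹) ∈ (⁅V, K₂⁆ : Subgroup G) := by
    intro w hw
    have h1 : ⁅w, d⁆ ∈ (⁅V, K₂⁆ : Subgroup G) :=
      Subgroup.commutator_mem_commutator (h₁.W_le hw) hd
    have h2 : ⁅w, d⁆ = w * (d * w * d⁻¹) := by
      rw [commutatorElement_def]
      nth_rewrite 2 [← hinv w (h₁.W_le hw)]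
      group
    rw [← h2]; exact h1
  let f : ↥(⁅V, K₁⁆ : Subgroup G) → ↥(⁅V, K₂⁆ : Subgroup G) :=
    fun w => ⟨(w : G) * (d * w * d⁻¹), hmem w w.2⟩
  have hinj : Function.Injective f := by
    intro w w' hww
    have e1 : (w : G) * (d * w * d⁻¹) = (w' : G) * (d * w' * d⁻¹) := congrArg Subtype.val hww
    have hwV : (w : G) ∈ V := h₁.W_le w.2
    have hw'V : (w' : G) ∈ V := h₁.W_le w'.2
    have haV : d * (w : G) * d⁻¹ ∈ V := conj_mem_of_mem_normalizer hdV hwV
    have hbV : d * (w' : G) * d⁻¹ ∈ V := conj_mem_of_mem_normalizer hdV hw'V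
    have e2 : d * ((w : G) * w') * d⁻¹ = (w : G) * w' := by
      have e3 : d * (w : G) * d⁻¹ = (w : G)⁻¹ * ((w' : G) * (d * w' * d⁻¹)) := by
        rw [← e1]; group
      calc d * ((w : G) * w') * d⁻¹ = (d * (w : G) * d⁻¹) * (d * w' * d⁻¹) := by group
        _ = (w : G)⁻¹ * ((w' : G) * (d * w' * d⁻¹)) * (d * w' * d⁻¹) := by rw [e3]
        _ = (w : G)⁻¹ * (w' : G) * ((d * w' * d⁻¹) * (d * w' * d⁻¹)) := by group
        _ = (w : G) * w' := by rw [h₁.hV2 _ hbV, hinv _ hwV, mul_one]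
    have e4 : (w : G) * w' = 1 := by
      apply hfix _ (mul_mem w.2 w'.2)
      calc d * ((w : G) * w') = (d * ((w : G) * w') * d⁻¹) * d := by group
        _ = (w : G) * w' * d := by rw [e2]
    apply Subtype.ext
    calc (w : G) = ((w : G) * w') * (w' : G)⁻¹ := by group
      _ = (w' : G) := by rw [e4, one_mul, hinv _ hw'V]
  have hbij : Function.Bijective f :=
    hinj.bijective_of_nat_card_le (by rw [h₁.hW4, h₂.hW4])
  intro w' hw'
  obtain ⟨w, hw⟩ := hbij.2 ⟨w', hw'⟩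
  exact ⟨w, w.2, (congrArg Subtype.val hw).symm⟩

theorem norm_aux [Finite G] {V Y : Subgroup G} : ∀ n : ℕ, ∀ K₁ K₂ : Subgroup G,
    RData V Y K₁ → RData V Y K₂ → Nat.card (K₁ ⊔ K₂ : Subgroup G) = n →
    K₂ ≤ Subgroup.normalizer ((⁅V, K₁⁆ : Subgroup G) : Set G) := by
  intro n
  induction n using Nat.strong_induction_on with
  | _ n ih =>
    intro K₁ K₂ h₁ h₂ hn
    by_contra hnot
    obtain ⟨d, hdK, hdN⟩ := SetLike.not_le_iff_exists.mp hnot
    have hD₀Y : K₁ ⊔ K₂ ≤ Y := sup_le h₁.hKY h₂.hKY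
    have hsub : (K₁.subgroupOf (K₁ ⊔ K₂)).IsSubnormal :=
      Cfsg.Agent.Lib.Helper49.SubnPair.subn_of_le hD₀Y h₁.hsub
    have hne : K₁.subgroupOf (K₁ ⊔ K₂) ≠ ⊤ := by
      intro htop
      rw [Subgroup.subgroupOf_eq_top] at htop
      exact hdN (h₁.K_norm_W (htop (Subgroup.mem_sup_right hdK)))
    obtain ⟨M', hM'n, hKM', hM'lt⟩ := hsub.exists_normal_and_le_and_lt_top_of_ne hne
    have key : ∀ e ∈ K₁ ⊔ K₂, e ∉ Subgroup.normalizer ((⁅V, K₁⁆ : Subgroup G) : Set G) →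
        K₁.map (MulAut.conj e).toMonoidHom ≤
          Subgroup.centralizer ((⁅V, K₁⁆ : Subgroup G) : Set G) := by
      intro e he heN
      have heY : e ∈ Y := hD₀Y he
      have h₁e := h₁.conj heY
      have hle : K₁ ⊔ K₁.map (MulAut.conj e).toMonoidHom ≤ M'.map (K₁ ⊔ K₂).subtype := by
        apply sup_le
        · intro k hk
          exact ⟨⟨k, Subgroup.mem_sup_left hk⟩, hKM' (Subgroup.mem_subgroupOf.mpr hk), rfl⟩
        · rintro x ⟨k, hk, rfl⟩
          refine ⟨⟨e, he⟩ * ⟨k, Subgroup.mem_sup_left hk⟩ * ⟨e, he⟩⁻¹, ?_, ?_⟩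
          · exact hM'n.conj_mem _ (hKM' (Subgroup.mem_subgroupOf.mpr hk)) _
          · simp [MulAut.conj_apply]
      have hcard : Nat.card (K₁ ⊔ K₁.map (MulAut.conj e).toMonoidHom : Subgroup G) < n := by
        have h1 := Subgroup.card_le_of_le hle
        have h2 : Nat.card (M'.map (K₁ ⊔ K₂).subtype) = Nat.card M' :=
          Subgroup.card_map_of_injective (Subgroup.subtype_injective _)
        have h3 : Nat.card M' < Nat.card (K₁ ⊔ K₂ : Subgroup G) :=
          Cfsg.Agent.Lib.Helper62.Wielandt.card_lt_of_ne_top hM'lt.ne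
        omega
      have hnorm := ih _ hcard K₁ _ h₁ h₁e rfl
      rcases caseA h₁ h₁e hnorm with heq | hc
      · exfalso
        apply heN
        rw [comm_map_conj (h₁.hYV heY)] at heq
        exact Subgroup.mem_normalizer_iff_map_conj_eq.mpr heq.symm
      · exact hc
    have hdD : d ∈ K₁ ⊔ K₂ := Subgroup.mem_sup_right hdK
    have hdY : d ∈ Y := hD₀Y hdD
    have hd3 : d * d * d ∈ Subgroup.normalizer ((⁅V, K₁⁆ : Subgroup G) : Set G) :=
      mem_normalizer_of_comm (fun w hw => h₂.hcube d hdK w (h₁.W_le hw))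
    have hd2N : d * d ∉ Subgroup.normalizer ((⁅V, K₁⁆ : Subgroup G) : Set G) := by
      intro h
      apply hdN
      have : d = (d * d * d) * (d * d)⁻¹ := by group
      rw [this]
      exact mul_mem hd3 (inv_mem h)
    have hdiN : d⁻¹ ∉ Subgroup.normalizer ((⁅V, K₁⁆ : Subgroup G) : Set G) := by
      intro h
      apply hdN
      have := inv_mem h
      rwa [inv_inv] at this
    have C1 := key d hdD hdN
    have C2 := key (d * d) (mul_mem hdD hdD) hd2N
    have C3 := key d⁻¹ (inv_mem hdD) hdiN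
    have hφ := surj h₁ h₂ hdK (fun u hu hc => fix_of_conj_cent h₁ C1 hu hc)
    have hψ := surj h₁ h₂ (mul_mem hdK hdK) (fun u hu hc => fix_of_conj_cent h₁ C2 hu hc)
    have hall : ∀ w' ∈ (⁅V, K₂⁆ : Subgroup G), w' = 1 := by
      intro w' hw'
      obtain ⟨w, hw, e1⟩ := hφ w' hw'
      obtain ⟨w₂, hw₂, e2⟩ := hψ w' hw'
      have hw1 : w = 1 := by
        apply h₁.hfix w hw
        intro k hk
        have hcK : d * k * d⁻¹ ∈ K₁.map (MulAut.conj d).toMonoidHom := conj_mem_map_conj hk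
        have hc1 : Commute (d * k * d⁻¹) w :=
          ((Subgroup.mem_centralizer_iff.mp (C1 hcK)) w hw).symm
        have hc2 : Commute (d * k * d⁻¹) w₂ :=
          ((Subgroup.mem_centralizer_iff.mp (C1 hcK)) w₂ hw₂).symm
        have h3 := (Subgroup.mem_centralizer_iff.mp
          (C3 (conj_mem_map_conj (g := d⁻¹) hk))) w₂ hw₂
        have hc3 : Commute (d * k * d⁻¹) (d * d * w₂ * (d * d)⁻¹) := by
          show d * k * d⁻¹ * (d * d * w₂ * (d * d)⁻¹) = d * d * w₂ * (d * d)⁻¹ * (d * k * d⁻¹)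
          calc d * k * d⁻¹ * (d * d * w₂ * (d * d)⁻¹)
              = d * d * ((d⁻¹ * k * d⁻¹⁻¹) * w₂) * d⁻¹ * d⁻¹ := by group
            _ = d * d * (w₂ * (d⁻¹ * k * d⁻¹⁻¹)) * d⁻¹ * d⁻¹ := by rw [h3]
            _ = d * d * w₂ * (d * d)⁻¹ * (d * k * d⁻¹) := by group
        have ht : d * w * d⁻¹ = w⁻¹ * (w₂ * (d * d * w₂ * (d * d)⁻¹)) := by
          rw [← e2, e1]; group
        have hct : Commute (d * k * d⁻¹) (d * w * d⁻¹) := by
          rw [ht]
          exact hc1.inv_right.mul_right (hc2.mul_right hc3)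
        calc k * w = d⁻¹ * ((d * k * d⁻¹) * (d * w * d⁻¹)) * d := by group
          _ = d⁻¹ * ((d * w * d⁻¹) * (d * k * d⁻¹)) * d := by rw [hct.eq]
          _ = w * k := by group
      rw [e1, hw1]; group
    have hbot : (⁅V, K₂⁆ : Subgroup G) = ⊥ := by
      rw [eq_bot_iff]
      intro x hx
      rw [Subgroup.mem_bot]
      exact hall x hx
    have h4 := h₂.hW4
    rw [hbot, Subgroup.card_bot] at h4
    omega

/-- **Main lemma**: two subgroups satisfying the hypotheses have equal commutators on `V`, or the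
second centralizes the commutator of the first. -/
theorem main [Finite G] {V Y K₁ K₂ : Subgroup G} (h₁ : RData V Y K₁) (h₂ : RData V Y K₂) :
    (⁅V, K₁⁆ : Subgroup G) = ⁅V, K₂⁆ ∨
      K₂ ≤ Subgroup.centralizer ((⁅V, K₁⁆ : Subgroup G) : Set G) :=
  caseA h₁ h₂ (norm_aux _ K₁ K₂ h₁ h₂ rfl)

end Cfsg.Agent.Lib.Helper48.Refl
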