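import Mathlib
import Cfsg.Agent.Lib.Helper62.S55Stmt

/-!
# S1355 / DLT: `M' < M` for a maximal subgroup `M` of a minimal simple group of odd order

Self-contained (Mathlib + the statement file): the fact `M ≠ ⊥` is proved here directly
(same argument as `Cfsg.Agent.Lib.Helper9.BG11b.coatom_ne_bot`).
-/

set_option autoImplicit false

universe u

namespace Cfsg.Agent.Lib.Helper48.S55DLT

open Cfsg.Agent.Lib.Helper62.S55Stmt

/-- `⁅M, M⁆` is the image of the commutator subgroup of `↥M`. -/
theorem comm_eq_map {G : Type u} [Group G] (M : Subgroup G) :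
    ⁅M, M⁆ = (commutator ↥M).map M.subtype := by
  rw [commutator_def, Subgroup.map_commutator, ← MonoidHom.range_eq_map, Subgroup.range_subtype]

/-- the pure part: `↥M` solvable and `M ≠ ⊥` give `⁅M, M⁆ < M`. -/
theorem main_of {G : Type u} [Group G] (M : Subgroup G) (hs : Group.IsSolvable ↥M) (hne : M ≠ ⊥) :
    ⁅M, M⁆ < M := by
  have hnt : Nontrivial ↥M := (Subgroup.nontrivial_iff_ne_bot M).mpr hne
  have hlt : commutator ↥M < ⊤ := Group.IsSolvable.commutator_lt_top_of_nontrivial ↥M
  rw [comm_eq_map]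
  refine lt_of_le_of_ne (Subgroup.map_subtype_le _) ?_
  intro heq
  apply hlt.ne
  apply Subgroup.map_injective (Subgroup.subtype_injective M)
  rw [heq, ← MonoidHom.range_eq_map, Subgroup.range_subtype]

/-- a maximal subgroup of a non-commutative group is nontrivial. -/
theorem coatom_ne_bot' {G : Type u} [Group G] (hnc : ¬ IsMulCommutative G) {M : Subgroup G}
    (hM : IsCoatom M) : M ≠ ⊥ := by
  rintro rfl
  apply hnc
  have hne : ∃ g : G, g ≠ 1 := by
    by_contra h
    push Not at h
    apply hM.1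
    rw [eq_top_iff]
    intro x _
    rw [h x]; exact Subgroup.one_mem _
  obtain ⟨g, hg⟩ := hne
  have h1 : Subgroup.zpowers g = ⊤ := by
    apply hM.2
    rw [bot_lt_iff_ne_bot]
    intro h
    exact hg (Subgroup.zpowers_eq_bot.mp h)
  constructor
  constructor
  intro a b
  have ha : a ∈ Subgroup.zpowers g := by rw [h1]; trivial
  have hb : b ∈ Subgroup.zpowers g := by rw [h1]; trivial
  obtain ⟨i, rfl⟩ := Subgroup.mem_zpowers_iff.mp ha
  obtain ⟨j, rfl⟩ := Subgroup.mem_zpowers_iff.mp hb
  exact (Commute.zpow_zpow_self g i j)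

theorem main : DLt.{u} := by
  intro G _ _ hG M hM
  exact main_of M (hG.2.2.2 M hM.1) (coatom_ne_bot' hG.2.2.1 hM)

end Cfsg.Agent.Lib.Helper48.S55DLT
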