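import Mathlib
import Cfsg.Agent.Lib.Helper22.S56Stmt
import Cfsg.Agent.Lib.Helper78.Fitting
import Cfsg.Agent.Lib.Helper17.S64FHHALL

/-!
# S1356 / FLE2 (call by helper22): `F(X) ≤ C_X(X_F) X_F`

Elements of coprime orders commute in a nilpotent group (induction on the class via the quotient
by the centre).  For `x ∈ F(X)`, `n = #X_F`, `m = [X : X_F]` (coprime): `x ^ m ∈ X_F`, `x ^ n` has
order dividing `m` and so centralizes `X_F`, and `x = (x ^ n) ^ a * (x ^ m) ^ b`.
-/

set_option autoImplicit false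

universe u

namespace Cfsg.Agent.Lib.Helper48.S56FLE2

open Cfsg.Agent.Lib.Helper22.S56Stmt

/-- elements of coprime orders commute in a nilpotent group -/
theorem commute_of_coprime (G : Type u) [Group G] [Group.IsNilpotent G] :
    ∀ y z : G, (orderOf y).Coprime (orderOf z) → Commute y z := by
  refine Group.nilpotent_center_quotient_ind
    (P := fun G _ _ => ∀ y z : G, (orderOf y).Coprime (orderOf z) → Commute y z) G ?_ ?_
  · intro G _ _ y z _
    exact Subsingleton.elim _ _
  · intro G _ _ ih y z hcop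
    have h1 : (orderOf (QuotientGroup.mk' (Subgroup.center G) y)).Coprime
        (orderOf (QuotientGroup.mk' (Subgroup.center G) z)) :=
      Nat.Coprime.coprime_dvd_left (orderOf_map_dvd _ y)
        (Nat.Coprime.coprime_dvd_right (orderOf_map_dvd _ z) hcop)
    have h2 := ih _ _ h1
    -- the commutator is central
    have hc : z * y * z⁻¹ * y⁻¹ ∈ Subgroup.center G := by
      rw [← QuotientGroup.eq_one_iff, QuotientGroup.mk_mul, QuotientGroup.mk_mul,
        QuotientGroup.mk_mul, QuotientGroup.mk_inv, QuotientGroup.mk_inv]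
      have h3 : (QuotientGroup.mk z : G ⧸ Subgroup.center G) * QuotientGroup.mk y
          = QuotientGroup.mk y * QuotientGroup.mk z := h2.eq.symm
      rw [h3]
      group
    obtain ⟨c, hcdef⟩ : ∃ c : G, c = z * y * z⁻¹ * y⁻¹ := ⟨_, rfl⟩
    rw [← hcdef] at hc
    have hcc : ∀ g : G, g * c = c * g := fun g => Subgroup.mem_center_iff.mp hc g
    have hzy : z * y = c * y * z := by rw [hcdef]; group
    have hc2 : c ^ orderOf y = 1 := by
      have e : c * y = z * y * z⁻¹ := by rw [hcdef]; group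
      have hcy : Commute c y := (hcc y).symm
      have h5 : (c * y) ^ orderOf y = 1 := by
        rw [e, conj_pow, pow_orderOf_eq_one, mul_one, mul_inv_cancel]
      rw [hcy.mul_pow, pow_orderOf_eq_one, mul_one] at h5
      exact h5
    have hc1 : c ^ orderOf z = 1 := by
      have e : c⁻¹ * z = y * z * y⁻¹ := by rw [hcdef]; group
      have hcz : Commute c⁻¹ z := Commute.inv_left (hcc z).symm
      have h5 : (c⁻¹ * z) ^ orderOf z = 1 := by
        rw [e, conj_pow, pow_orderOf_eq_one, mul_one, mul_inv_cancel]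
      rw [hcz.mul_pow, pow_orderOf_eq_one, mul_one, inv_pow, inv_eq_one] at h5
      exact h5
    have hc0 : c = 1 := by
      have hd1 : orderOf c ∣ orderOf z := orderOf_dvd_of_pow_eq_one hc1
      have hd2 : orderOf c ∣ orderOf y := orderOf_dvd_of_pow_eq_one hc2
      have : orderOf c ∣ 1 := by
        have := Nat.dvd_gcd hd2 hd1
        rwa [hcop.gcd_eq_one] at this
      exact orderOf_eq_one_iff.mp (Nat.dvd_one.mp this)
    show y * z = z * y
    rw [hzy, hc0, one_mul]

theorem main : FLe2.{u} := by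
  intro X _ _
  intro x hx
  have hFnil : Group.IsNilpotent ↥(Cfsg.fittingSubgroup X) :=
    Cfsg.Agent.Lib.Helper78.Fitting.fitting_isNilpotent
  have hNF : Cfsg.fittingHall X ≤ Cfsg.fittingSubgroup X := by
    unfold Cfsg.fittingHall Cfsg.fittingSubgroup
    exact sSup_le_sSup (fun N hN => ⟨hN.1, hN.2.1⟩)
  have hcop : (Nat.card ↥(Cfsg.fittingHall X)).Coprime (Cfsg.fittingHall X).index :=
    Cfsg.Agent.Lib.Helper17.S64FHHALL.main
  have hxm : x ^ (Cfsg.fittingHall X).index ∈ Cfsg.fittingHall X :=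
    Subgroup.pow_index_mem _ x
  have hxnm : (x ^ Nat.card ↥(Cfsg.fittingHall X)) ^ (Cfsg.fittingHall X).index = 1 := by
    rw [← pow_mul, Subgroup.card_mul_index]
    exact pow_card_eq_one'
  have hzF : x ^ Nat.card ↥(Cfsg.fittingHall X) ∈ Cfsg.fittingSubgroup X :=
    Subgroup.pow_mem _ hx _
  have hzC : x ^ Nat.card ↥(Cfsg.fittingHall X) ∈
      Subgroup.centralizer ((Cfsg.fittingHall X : Subgroup X) : Set X) := by
    rw [Subgroup.mem_centralizer_iff]
    intro y hy
    have hyF : y ∈ Cfsg.fittingSubgroup X := hNF hy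
    have ho1 : orderOf y ∣ Nat.card ↥(Cfsg.fittingHall X) := Subgroup.orderOf_dvd_natCard _ hy
    have ho2 : orderOf (x ^ Nat.card ↥(Cfsg.fittingHall X)) ∣ (Cfsg.fittingHall X).index :=
      orderOf_dvd_of_pow_eq_one hxnm
    have hco : (orderOf (⟨y, hyF⟩ : ↥(Cfsg.fittingSubgroup X))).Coprime
        (orderOf (⟨x ^ Nat.card ↥(Cfsg.fittingHall X), hzF⟩ : ↥(Cfsg.fittingSubgroup X))) := by
      rw [Subgroup.orderOf_mk, Subgroup.orderOf_mk]
      exact Nat.Coprime.coprime_dvd_left ho1 (Nat.Coprime.coprime_dvd_right ho2 hcop)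
    have h := commute_of_coprime ↥(Cfsg.fittingSubgroup X) _ _ hco
    have h' := congrArg (Subtype.val) h.eq
    exact h'
  -- Bezout
  have hb := Nat.gcd_eq_gcd_ab (Nat.card ↥(Cfsg.fittingHall X)) (Cfsg.fittingHall X).index
  rw [hcop.gcd_eq_one] at hb
  have hx1 : x = (x ^ Nat.card ↥(Cfsg.fittingHall X)) ^
        (Nat.gcdA (Nat.card ↥(Cfsg.fittingHall X)) (Cfsg.fittingHall X).index)
      * (x ^ (Cfsg.fittingHall X).index) ^
        (Nat.gcdB (Nat.card ↥(Cfsg.fittingHall X)) (Cfsg.fittingHall X).index) := by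
    rw [← zpow_natCast, ← zpow_natCast, ← zpow_mul, ← zpow_mul, ← zpow_add, ← hb]
    simp
  rw [hx1]
  exact Subgroup.mul_mem_sup (Subgroup.zpow_mem _ hzC _) (Subgroup.zpow_mem _ hxm _)

end Cfsg.Agent.Lib.Helper48.S56FLE2
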