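import Mathlib
import Cfsg.Agent.Lib.Helper62.S57Stmt
import Cfsg.Agent.Lib.Helper48.S56FLE2

/-!
# S1357 / NILCOMM (call by helper62): coprime-order elements of a nilpotent group commute

Wrapper of `Cfsg.Agent.Lib.Helper48.S56FLE2.commute_of_coprime` (induction over the centre
quotient; finiteness is not needed).
-/

set_option autoImplicit false

universe u

namespace Cfsg.Agent.Lib.Helper48.S57NILCOMM

open Cfsg.Agent.Lib.Helper62.S57Stmt

theorem main : NilComm.{u} := by
  intro F _ _ hnil a b hcop
  exact (Cfsg.Agent.Lib.Helper48.S56FLE2.commute_of_coprime F a b hcop).eq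

end Cfsg.Agent.Lib.Helper48.S57NILCOMM
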