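import Mathlib
import Cfsg.Agent.Lib.Helper14.TC3Stmt
import Cfsg.Agent.Lib.Helper67.TC3H1
import Cfsg.Agent.Lib.Helper3.TDTak

/-!
S4460 piece H3 (from H1).
-/

set_option autoImplicit false

namespace Cfsg.Agent.Lib.Helper48.TC3H3

open Cfsg Cfsg.Agent.Lib.Helper14.TC3Stmt
open Cfsg.Agent.Lib.CT Cfsg.Agent.Lib.CT.Wedderburn
open Cfsg.Agent.Lib.Helper67.TC3H1
open scoped ComplexConjugate

universe u

theorem charDegree_of_apply_one_eq {G : Type u} [Group G] {χ : G → ℂ} {k : ℕ} (h : χ 1 = k) :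
    charDegree χ = k := by
  simp [charDegree, h]

theorem main (h1 : H1.{u}) : H3.{u} := by
  intro G _ _ m n hdeg hcop hm1 hmn χ₁ χ₂ ψ hχ₁ hχ₂ hψ hne
  classical
  haveI := finite_irrCharacter G
  haveI : Fintype (IrrCharacter G) := Fintype.ofFinite _
  obtain ⟨lam, hlam1, hlam⟩ := h1 G m n hdeg hcop hmn χ₁ χ₂ ψ hχ₁ hχ₂ hψ hne
  have hlam1' : (lam : G → ℂ) 1 = 1 := by
    rw [← char_natCast_charDegree (isCharacter_of_irr lam.2), hlam1]; simp
  have hψ'irr : IsIrrCharacter G ((lam : G → ℂ) * fun g => conj ((ψ : G → ℂ) g)) :=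
    LinChar.isIrrCharacter_linear_mul (isCharacter_of_irr lam.2) hlam1' (conj_irr ψ.2)
  obtain ⟨ψ', hψ'⟩ : ∃ ψ' : IrrCharacter G,
      ∀ g, (ψ' : G → ℂ) g = (lam : G → ℂ) g * conj ((ψ : G → ℂ) g) :=
    ⟨⟨_, hψ'irr⟩, fun g => rfl⟩
  have hψ1 : (ψ : G → ℂ) 1 = n := by
    rw [← char_natCast_charDegree (isCharacter_of_irr ψ.2), hψ]
  have hχ1 : (χ₁ : G → ℂ) 1 = m := by
    rw [← char_natCast_charDegree (isCharacter_of_irr χ₁.2), hχ₁]
  have hψ'1 : (ψ' : G → ℂ) 1 = n := by
    rw [hψ', hlam1', one_mul, hψ1]; simp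
  have hψ'deg : charDegree (ψ' : G → ℂ) = n := charDegree_of_apply_one_eq hψ'1
  refine ⟨χ₁, ψ', hχ₁, hψ'deg, ?_⟩
  have hΘ : IsCharacter G ((χ₁ : G → ℂ) * (ψ' : G → ℂ)) :=
    Ops.isCharacter_mul (isCharacter_of_irr χ₁.2) (isCharacter_of_irr ψ'.2)
  obtain ⟨a, ha, hexp⟩ := NormOne.exists_mult_sum hΘ
  have haχ : a χ₁ ≠ 0 := by
    intro h0
    apply hne
    have h5 := ha χ₁
    rw [h0, Nat.cast_zero] at h5
    rw [← h5]
    unfold classInner
    congr 1
    refine Finset.sum_congr rfl fun g _ => ?_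
    simp only [Pi.mul_apply, hψ', hlam g, map_mul, Complex.conj_conj]
    ring
  -- no linear constituents
  have hnolin : ∀ η : IrrCharacter G, a η ≠ 0 → charDegree (η : G → ℂ) ≠ 1 := by
    intro η hη0 hη1
    have hη1' : (η : G → ℂ) 1 = 1 := by
      rw [← char_natCast_charDegree (isCharacter_of_irr η.2), hη1]; simp
    have hξ : IsIrrCharacter G ((η : G → ℂ) * fun g => conj ((χ₁ : G → ℂ) g)) :=
      LinChar.isIrrCharacter_linear_mul (isCharacter_of_irr η.2) hη1' (conj_irr χ₁.2)
    have hinner : classInner (ψ' : G → ℂ) ((η : G → ℂ) * fun g => conj ((χ₁ : G → ℂ) g))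
        = a η := by
      rw [← ha η]
      unfold classInner
      congr 1
      refine Finset.sum_congr rfl fun g _ => ?_
      simp only [Pi.mul_apply, map_mul, Complex.conj_conj]
      ring
    have hort := irr_orthonormal ψ' ⟨_, hξ⟩
    rw [hinner] at hort
    by_cases heq : ψ' = ⟨_, hξ⟩
    · have h2 := congrArg (fun t : IrrCharacter G => (t : G → ℂ) 1) heq
      simp only [Pi.mul_apply] at h2
      rw [hψ'1, hη1', one_mul, hχ1] at h2
      have h3 : (n : ℂ) = (m : ℂ) := by rw [h2]; simp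
      have h4 : n = m := by exact_mod_cast h3
      omega
    · rw [if_neg heq] at hort
      exact hη0 (by exact_mod_cast hort)
  -- degree sum
  have hsum : m * n = ∑ η : IrrCharacter G, a η * charDegree (η : G → ℂ) := by
    have e := congrFun hexp 1
    rw [Finset.sum_apply] at e
    simp only [Pi.mul_apply, Pi.smul_apply, smul_eq_mul] at e
    rw [hχ1, hψ'1] at e
    have e2 : ((m * n : ℕ) : ℂ)
        = ((∑ η : IrrCharacter G, a η * charDegree (η : G → ℂ) : ℕ) : ℂ) := by
      push_cast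
      rw [e]
      refine Finset.sum_congr rfl fun η _ => ?_
      rw [char_natCast_charDegree (isCharacter_of_irr η.2)]
    exact_mod_cast e2
  have hterm : ∀ η : IrrCharacter G, a η * charDegree (η : G → ℂ) =
      (if charDegree (η : G → ℂ) = n then a η else 0) * n
        + (if charDegree (η : G → ℂ) = n then 0 else a η) * m := by
    intro η
    by_cases hn : charDegree (η : G → ℂ) = n
    · rw [if_pos hn, if_pos hn, hn]; ring
    · rw [if_neg hn, if_neg hn]
      by_cases h0 : a η = 0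
      · rw [h0]; ring
      · have hd1 : charDegree (η : G → ℂ) ≠ 1 := hnolin η h0
        rcases hdeg η with h | h | h
        · exact absurd h hd1
        · rw [h]; ring
        · exact absurd h hn
  have hsum2 := hsum
  rw [Finset.sum_congr rfl (fun η _ => hterm η), Finset.sum_add_distrib, ← Finset.sum_mul,
    ← Finset.sum_mul] at hsum2
  have hA1 : 1 ≤ ∑ η : IrrCharacter G, (if charDegree (η : G → ℂ) = n then 0 else a η) := by
    have : (if charDegree (χ₁ : G → ℂ) = n then 0 else a χ₁)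
        ≤ ∑ η : IrrCharacter G, (if charDegree (η : G → ℂ) = n then 0 else a η) :=
      Finset.single_le_sum
        (f := fun η : IrrCharacter G => (if charDegree (η : G → ℂ) = n then 0 else a η))
        (fun _ _ => Nat.zero_le _) (Finset.mem_univ χ₁)
    rw [if_neg (by rw [hχ₁]; omega)] at this
    omega
  have hB0 : ∑ η : IrrCharacter G, (if charDegree (η : G → ℂ) = n then a η else 0) = 0 := by
    generalize (∑ η : IrrCharacter G, (if charDegree (η : G → ℂ) = n then a η else 0)) = B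
      at hsum2
    generalize (∑ η : IrrCharacter G, (if charDegree (η : G → ℂ) = n then 0 else a η)) = A
      at hsum2 hA1
    have hdvd : n ∣ A := by
      have h3 : n ∣ A * m := by
        have h4 : n ∣ B * n + A * m := ⟨m, by rw [← hsum2]; ring⟩
        exact (Nat.dvd_add_right (Dvd.intro_left B rfl)).mp h4
      exact hcop.symm.dvd_of_dvd_mul_right h3
    have hAn : n ≤ A := Nat.le_of_dvd (by omega) hdvd
    by_contra hB
    have hB1 : 1 ≤ B := Nat.pos_of_ne_zero hB
    nlinarith [Nat.mul_le_mul_right m hAn, Nat.mul_le_mul_right n hB1]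
  have hdegm : ∀ η : IrrCharacter G, a η ≠ 0 → charDegree (η : G → ℂ) = m := by
    intro η hη0
    rcases hdeg η with h | h | h
    · exact absurd h (hnolin η hη0)
    · exact h
    · exfalso
      have : (if charDegree (η : G → ℂ) = n then a η else 0)
          ≤ ∑ η : IrrCharacter G, (if charDegree (η : G → ℂ) = n then a η else 0) :=
        Finset.single_le_sum
          (f := fun η : IrrCharacter G => (if charDegree (η : G → ℂ) = n then a η else 0))
          (fun _ _ => Nat.zero_le _) (Finset.mem_univ η)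
      rw [if_pos h, hB0] at this
      omega
  have hsumA : ∑ η : IrrCharacter G, a η = n := by
    have h2 : ∑ η : IrrCharacter G, a η * charDegree (η : G → ℂ)
        = (∑ η : IrrCharacter G, a η) * m := by
      rw [Finset.sum_mul]
      refine Finset.sum_congr rfl fun η _ => ?_
      by_cases h0 : a η = 0
      · rw [h0]; ring
      · rw [hdegm η h0]
    rw [h2] at hsum
    have h3 : m * n = m * (∑ η : IrrCharacter G, a η) := by rw [hsum]; ring
    exact (Nat.eq_of_mul_eq_mul_left (by omega) h3).symm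
  have hconst : ∀ φ : IrrCharacter G, a φ ≠ 0 → ∀ g ∈ commutator G,
      (φ : G → ℂ) g = (χ₁ : G → ℂ) g := by
    intro φ hφ0 g hg
    obtain ⟨φc, hφc'⟩ : ∃ φc : IrrCharacter G, ∀ g, (φc : G → ℂ) g = conj ((φ : G → ℂ) g) :=
      ⟨⟨fun g => conj ((φ : G → ℂ) g), conj_irr φ.2⟩, fun g => rfl⟩
    obtain ⟨ψc, hψc'⟩ : ∃ ψc : IrrCharacter G, ∀ g, (ψc : G → ℂ) g = conj ((ψ' : G → ℂ) g) :=
      ⟨⟨fun g => conj ((ψ' : G → ℂ) g), conj_irr ψ'.2⟩, fun g => rfl⟩
    have hφc : charDegree (φc : G → ℂ) = m := by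
      have : (φc : G → ℂ) 1 = m := by
        rw [hφc', ← char_natCast_charDegree (isCharacter_of_irr φ.2), hdegm φ hφ0]; simp
      exact charDegree_of_apply_one_eq this
    have hψc : charDegree (ψc : G → ℂ) = n := by
      have : (ψc : G → ℂ) 1 = n := by
        rw [hψc', hψ'1]; simp
      exact charDegree_of_apply_one_eq this
    have hne' : classInner (fun g => (χ₁ : G → ℂ) g * (φc : G → ℂ) g) (ψc : G → ℂ) ≠ 0 := by
      have h5 := ha φ
      have h6 : classInner (fun g => (χ₁ : G → ℂ) g * (φc : G → ℂ) g) (ψc : G → ℂ) = a φ := by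
        rw [← h5]
        unfold classInner
        congr 1
        refine Finset.sum_congr rfl fun g _ => ?_
        simp only [hφc', hψc', Complex.conj_conj, Pi.mul_apply]
        ring
      rw [h6]
      exact_mod_cast hφ0
    obtain ⟨μ, hμ1, hμ⟩ := h1 G m n hdeg hcop hmn χ₁ φc ψc hχ₁ hφc hψc hne'
    have hμg : (μ : G → ℂ) g = 1 := by
      rw [Cfsg.Agent.Lib.Helper3.TDTak.apply_eq_one_of_mem_commutator μ hμ1 hg,
        ← char_natCast_charDegree (isCharacter_of_irr μ.2), hμ1]; simp
    have h7 := hμ g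
    rw [hφc', hμg, one_mul] at h7
    have h9 := congrArg conj h7
    rwa [Complex.conj_conj, Complex.conj_conj] at h9
  intro g hg hχg
  have e := congrFun hexp g
  rw [Finset.sum_apply] at e
  simp only [Pi.mul_apply, Pi.smul_apply, smul_eq_mul] at e
  have e2 : ∑ η : IrrCharacter G, (a η : ℂ) * (η : G → ℂ) g = (n : ℂ) * (χ₁ : G → ℂ) g := by
    have h2 : ∀ η : IrrCharacter G,
        (a η : ℂ) * (η : G → ℂ) g = (a η : ℂ) * (χ₁ : G → ℂ) g := by
      intro η
      by_cases h0 : a η = 0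
      · rw [h0]; simp
      · rw [hconst η h0 g hg]
    rw [Finset.sum_congr rfl (fun η _ => h2 η), ← Finset.sum_mul, ← hsumA]
    push_cast
    rfl
  rw [e2] at e
  have h3 : (χ₁ : G → ℂ) g * ((ψ' : G → ℂ) g - n) = 0 := by rw [mul_sub, e]; ring
  rcases mul_eq_zero.1 h3 with h | h
  · exact absurd h hχg
  · exact sub_eq_zero.1 h

end Cfsg.Agent.Lib.Helper48.TC3H3
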