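import Mathlib
import Cfsg.Agent.Lib.Helper14.TC3Stmt
import Cfsg.Agent.S0175
import Cfsg.Agent.Lib.Helper3.TDTak

/-!
S4460 piece TAK3: Taketa for three character degrees.
-/

set_option autoImplicit false

namespace Cfsg.Agent.Lib.Helper48.TC3TAK3

open Cfsg Cfsg.Agent.Lib.Helper14.TC3Stmt
open Cfsg.Agent.Lib.Helper3.Irr Cfsg.Agent.Lib.CT.FrobRec
open Cfsg.Agent.Lib.Helper80.Integrality Cfsg.Agent.Lib.CT.Wedderburn
open scoped commutatorElement

universe u

/-- number of the degrees `1, m, n` that are `≤ D`. -/
def rk (m n D : ℕ) : ℕ := (({1, m, n} : Finset ℕ).filter (· ≤ D)).card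

theorem rk_mono (m n : ℕ) {D D' : ℕ} (h : D ≤ D') : rk m n D ≤ rk m n D' := by
  unfold rk
  apply Finset.card_le_card
  intro x hx
  rw [Finset.mem_filter] at hx ⊢
  exact ⟨hx.1, hx.2.trans h⟩

theorem rk_le_three (m n D : ℕ) : rk m n D ≤ 3 := by
  unfold rk
  calc (({1, m, n} : Finset ℕ).filter (· ≤ D)).card ≤ ({1, m, n} : Finset ℕ).card :=
        Finset.card_filter_le _ _
    _ ≤ 3 := Finset.card_le_three

theorem rk_succ (m n D : ℕ) (h : D + 1 = 1 ∨ D + 1 = m ∨ D + 1 = n) :
    rk m n D + 1 ≤ rk m n (D + 1) := by
  unfold rk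
  have hmem : D + 1 ∈ (({1, m, n} : Finset ℕ).filter (· ≤ D + 1)) := by
    rw [Finset.mem_filter]
    refine ⟨?_, le_refl _⟩
    simp only [Finset.mem_insert, Finset.mem_singleton]
    exact h
  have hnot : D + 1 ∉ (({1, m, n} : Finset ℕ).filter (· ≤ D)) := by
    rw [Finset.mem_filter]
    rintro ⟨-, h2⟩
    omega
  have hsub : insert (D + 1) (({1, m, n} : Finset ℕ).filter (· ≤ D)) ⊆
      (({1, m, n} : Finset ℕ).filter (· ≤ D + 1)) := by
    intro x hx
    rw [Finset.mem_insert] at hx
    rcases hx with rfl | hx
    · exact hmem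
    · rw [Finset.mem_filter] at hx ⊢
      exact ⟨hx.1, by omega⟩
  have := Finset.card_le_card hsub
  rwa [Finset.card_insert_of_notMem hnot] at this

theorem main : Tak3.{u} := by
  intro G _ _ m n hdeg hMono
  classical
  have hM : ∀ χ : G → ℂ, Cfsg.IsIrrCharacter G χ → ∃ (H : Subgroup G) (lam : H →* ℂˣ),
      χ = Cfsg.indFun H (fun h => (lam h : ℂ)) := by
    intro χ hχ
    obtain ⟨U, lam, hlam, hlam1, hind⟩ := hMono χ hχ
    obtain ⟨f, hf⟩ := Cfsg.Agent.Lib.CT.LinChar.exists_hom_of_isCharacter lam hlam hlam1
    refine ⟨U, f, ?_⟩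
    rw [← hind]
    congr 1
    funext h
    exact hf h
  have hfin := Cfsg.Agent.Lib.Helper3.Irr.finite_irrCharacter (G := G)
  haveI : Fintype (IrrCharacter G) := Fintype.ofFinite _
  let d : IrrCharacter G → ℕ := fun ψ => charDegree (ψ : G → ℂ)
  have hdpos : ∀ ψ : IrrCharacter G, 0 < d ψ := fun ψ => charDegree_pos ψ
  have hd : ∀ ψ : IrrCharacter G, (ψ : G → ℂ) 1 = (d ψ : ℂ) := fun ψ =>
    apply_one_eq_charDegree (isCharacter_of_irr ψ.2)
  let triv : IrrCharacter G := ⟨fun _ => 1, Cfsg.Agent.Lib.CT.Ops.isIrrCharacter_one⟩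
  have hdtriv : d triv = 1 := by
    have := hd triv
    have h1 : (triv : G → ℂ) 1 = 1 := rfl
    rw [h1] at this
    exact_mod_cast this.symm
  have key : ∀ D : ℕ, ∀ χ : IrrCharacter G, d χ ≤ D →
      ∀ g ∈ derivedSeries G (rk m n D), (χ : G → ℂ) g = (χ : G → ℂ) 1 := by
    intro D
    induction D with
    | zero =>
      intro χ hχ
      have := hdpos χ
      omega
    | succ D ih =>
      intro χ hχ g hg
      by_cases hχD : d χ ≤ D
      · exact ih χ hχD g (derivedSeries_antitone G (rk_mono m n (Nat.le_succ D)) hg)
      · have hdχ : d χ = D + 1 := by omega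
        have hD1 : D + 1 = 1 ∨ D + 1 = m ∨ D + 1 = n := by
          rw [← hdχ]
          exact hdeg χ
        have hg' : g ∈ derivedSeries G (rk m n D + 1) :=
          derivedSeries_antitone G (rk_succ m n D hD1) hg
        obtain ⟨H, lam, hχH⟩ := hM χ χ.2
        have hidx : H.index = D + 1 := by
          have h1 := hd χ
          rw [hχH, indFun_one, map_one, Units.val_one, mul_one, hdχ] at h1
          exact_mod_cast h1
        -- the derived subgroup lies in H
        have hDH : ∀ x ∈ derivedSeries G (rk m n D), x ∈ H := by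
          intro x hx
          by_cases hH : H = ⊤
          · rw [hH]
            exact Subgroup.mem_top x
          · have hidx2 : 2 ≤ H.index := by
              have h1 : H.index ≠ 1 := fun h => hH (Subgroup.index_eq_one.1 h)
              have h2 : H.index ≠ 0 := Subgroup.index_ne_zero_of_finite
              omega
            have hΦ : IsCharacter G (indFun H (fun _ => (1 : ℂ))) :=
              Cfsg.Agent.Lib.CT.IndChar.isCharacter_indFun H _ Cfsg.Agent.Lib.CT.Ops.isCharacter_one
            obtain ⟨mm, hm, hexp⟩ := Cfsg.Agent.Lib.CT.NormOne.exists_mult_sum hΦ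
            have hmtriv : mm triv = 1 := by
              have h1 := hm triv
              have h2 := frobenius_reciprocity H (fun _ => (1 : ℂ)) (fun _ : G => (1 : ℂ))
                (fun _ _ => rfl)
              have h3 : classInner (fun _ : H => (1 : ℂ)) (fun _ : H => (1 : ℂ)) = 1 := by
                unfold classInner
                have hH0 : (Nat.card H : ℂ) ≠ 0 := by exact_mod_cast Nat.card_pos.ne'
                simp only [map_one, mul_one, Finset.sum_const, Finset.card_univ, nsmul_eq_mul]
                rw [← Nat.card_eq_fintype_card]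
                exact inv_mul_cancel₀ hH0
              rw [h3] at h2
              have h4 : ((triv : IrrCharacter G) : G → ℂ) = fun _ => (1 : ℂ) := rfl
              rw [h4, h2] at h1
              exact_mod_cast h1.symm
            have hsum : H.index = ∑ φ : IrrCharacter G, mm φ * d φ := by
              have h1 := congrFun hexp 1
              rw [indFun_one, mul_one, Finset.sum_apply] at h1
              have h2 : ∀ φ : IrrCharacter G,
                  ((mm φ : ℂ) • (φ : G → ℂ)) 1 = ((mm φ * d φ : ℕ) : ℂ) := by
                intro φ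
                rw [Pi.smul_apply, hd φ, smul_eq_mul]
                push_cast
                ring
              simp only [h2] at h1
              exact_mod_cast h1
            have hdeg' : ∀ φ : IrrCharacter G, mm φ ≠ 0 → d φ ≤ D := by
              intro φ hφ
              by_cases hφt : φ = triv
              · rw [hφt, hdtriv]
                omega
              · have h1 : mm φ * d φ + mm triv * d triv ≤ ∑ ψ : IrrCharacter G, mm ψ * d ψ := by
                  have h0 := Finset.sum_pair (f := fun ψ : IrrCharacter G => mm ψ * d ψ) hφt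
                  rw [← h0]
                  exact Finset.sum_le_sum_of_subset (Finset.subset_univ _)
                rw [← hsum, hidx, hmtriv, hdtriv] at h1
                have h2 : d φ ≤ mm φ * d φ := Nat.le_mul_of_pos_left _ (Nat.pos_of_ne_zero hφ)
                omega
            apply Cfsg.Agent.S0175.mem_of_indFun_one_eq H
            rw [hexp, Finset.sum_apply, Finset.sum_apply]
            refine Finset.sum_congr rfl (fun φ _ => ?_)
            rw [Pi.smul_apply, Pi.smul_apply]
            by_cases hφ : mm φ = 0
            · rw [hφ]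
              simp
            · rw [ih φ (hdeg' φ hφ) x hx]
        -- the next derived subgroup lies in the kernel of lam
        have hDL : derivedSeries G (rk m n D + 1) ≤ (lam.ker).map H.subtype := by
          rw [derivedSeries_succ, Subgroup.commutator_le]
          intro g₁ hg₁ g₂ hg₂
          refine Subgroup.mem_map.2 ⟨⁅(⟨g₁, hDH g₁ hg₁⟩ : H), ⟨g₂, hDH g₂ hg₂⟩⁆, ?_, rfl⟩
          rw [MonoidHom.mem_ker, commutatorElement_def, map_mul, map_mul, map_mul, map_inv,
            map_inv, mul_comm (lam _) (lam _), mul_inv_cancel_right, mul_inv_cancel]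
        haveI := derivedSeries_normal G (rk m n D + 1)
        have hfinal := Cfsg.Agent.S0175.indFun_eq_of_normal H lam
          (derivedSeries G (rk m n D + 1)) (by
          intro n' hn
          obtain ⟨y, hy, rfl⟩ := Subgroup.mem_map.1 (hDL hn)
          exact ⟨y.2, hy⟩) hg'
        rw [hχH]
        exact hfinal
  rw [eq_bot_iff]
  intro g hg
  rw [Subgroup.mem_bot]
  have h1 : IsConj g 1 := by
    rw [Cfsg.Agent.Lib.Helper3.Orth.isConj_iff_irr_eq]
    intro χ
    exact key (d χ) χ (le_refl _) g
      (derivedSeries_antitone G (rk_le_three m n (d χ)) hg)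
  exact isConj_one_left.1 h1

end Cfsg.Agent.Lib.Helper48.TC3TAK3
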