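import Mathlib
import Cfsg.Agent.Lib.Helper44.TPStmt

/-!
# S5973 / B2EVEN (call by helper44): `i` even, `i ≤ m`, glue + arithmetic
-/

set_option autoImplicit false
set_option maxHeartbeats 1000000

universe u

namespace Cfsg.Agent.Lib.Helper48.TPB2EVEN

open Cfsg.Agent.Lib.Helper44.TPStmt
open Cfsg.Agent.Lib.Helper37.HypStmt (cc IPos)

theorem main (hIPos : IPos.{u}) (hA : BadA.{u}) (hB : BadB.{u}) (hC : BadC.{u})
    (hD : BadD.{u}) : B2Even.{u} := by
  intro F _ _ p _ _ d m hd hm1 hmd r _ hr2 hrp hev him hneg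
  have hipos := hIPos F p r hrp
  have hA' := hA F p d m hd r hr2 hrp
  have hB' := hB F p d m hd r hr2 hrp hev
  have hC' := hC F p d m hd r hr2 hrp hev
  have hD' := hD F p d m hd r hr2 hrp hev
  have hcc : cc (orderOf ((Fintype.card F : ℕ) : ZMod r)) =
      orderOf ((Fintype.card F : ℕ) : ZMod r) := by
    unfold cc; rw [if_pos hev]
  rw [hcc] at hA'
  generalize orderOf ((Fintype.card F : ℕ) : ZMod r) = i at *
  obtain ⟨n', hn'⟩ : ∃ n', n' = 2 * d / i := ⟨_, rfl⟩
  obtain ⟨k, hk⟩ : ∃ k, k = 2 * d % i := ⟨_, rfl⟩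
  obtain ⟨m', hm'⟩ : ∃ m', m' = m / i := ⟨_, rfl⟩
  obtain ⟨l, hl⟩ : ∃ l, l = m % i := ⟨_, rfl⟩
  obtain ⟨t, ht⟩ : ∃ t, t = (r - 1) / i := ⟨_, rfl⟩
  rw [← hn', ← hk, ← hm', ← hl, ← ht] at hneg
  rw [← ht] at hC' hD'
  -- products as atoms
  obtain ⟨P, hP⟩ : ∃ P, P = i * n' := ⟨_, rfl⟩
  obtain ⟨Q, hQ⟩ : ∃ Q, Q = i * m' := ⟨_, rfl⟩
  have e1 : P + k = 2 * d := by rw [hP, hn', hk]; exact Nat.div_add_mod (2 * d) i
  have e2 : Q + l = m := by rw [hQ, hm', hl]; exact Nat.div_add_mod m i
  have hki : k < i := by rw [hk]; exact Nat.mod_lt _ hipos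
  have hli : l < i := by rw [hl]; exact Nat.mod_lt _ hipos
  have hm'1 : 1 ≤ m' := by rw [hm']; exact Nat.div_pos him hipos
  have hQi : i ≤ Q := by rw [hQ]; exact Nat.le_mul_of_pos_right i hm'1
  have hnm : 2 * m' ≤ n' := by
    rw [hn', Nat.le_div_iff_mul_le hipos]
    have : 2 * m' * i = 2 * Q := by rw [hQ]; ring
    omega
  have hPQ : 2 * Q ≤ P := by
    have h := Nat.mul_le_mul_left i hnm
    have e : i * (2 * m') = 2 * Q := by rw [hQ]; ring
    rw [e, ← hP] at h
    exact h
  have hn'i : n' * i = P := by rw [hP]; ring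
  -- the bound for `s`
  have hs : ∀ s : ℕ, i * s ≤ m → l ≤ m - i * s := by
    intro s hs
    have h1 : s ≤ m' := by
      rw [hm', Nat.le_div_iff_mul_le hipos, mul_comm]; exact hs
    have h2 := Nat.mul_le_mul_left i h1
    rw [← hQ] at h2
    omega
  by_cases c1 : n' < t + 2 * m'
  · -- case (1): BadC with u = n' + 1 - 2 m'
    have hiu : i * (n' + 1 - 2 * m') = P + i - 2 * Q := by
      rw [Nat.mul_sub, hP, hQ]; ring_nf
    refine hC' (n' + 1 - 2 * m') (by omega) (by omega) ?_ ?_
    · rw [hiu]; omega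
    · rw [hiu]; omega
  · have c1' : t + 2 * m' ≤ n' := by omega
    rcases Nat.even_or_odd n' with he | ho
    · -- case (2): BadA with b = n'
      have hk2 : k < 2 * l := by
        by_contra hcon
        exact hneg ⟨c1', Or.inr (Or.inl ⟨by omega, he⟩)⟩
      refine hA' n' ?_ ?_ (fun _ => Or.inr he) ?_
      · rw [hn']; exact Nat.div_pos (by omega) hipos
      · rw [hn'i]; omega
      · intro s hs'
        have := hs s hs'
        rw [hn'i]; omega
    · obtain ⟨c, hc⟩ := ho
      by_cases hk0 : 0 < k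
      · -- case (3): BadB with b = n'
        have hk2 : k ≤ 2 * l := by
          by_contra hcon
          exact hneg ⟨c1', Or.inr (Or.inr ⟨by omega, ⟨c, hc⟩⟩)⟩
        refine hB' n' ⟨c, hc⟩ ?_ ?_
        · rw [hn'i]; omega
        · intro s hs'
          have := hs s hs'
          rw [hn'i]; omega
      · have hk00 : k = 0 := by omega
        by_cases h4 : i < 2 * l
        · -- case (4): BadA with b = n' - 1
          have hc1 : 1 ≤ c := by
            by_contra hcon
            have hc0 : c = 0 := by omega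
            have : n' = 1 := by omega
            rw [this, mul_one] at hP
            omega
          have hb : (n' - 1) * i = P - i := by
            rw [Nat.sub_mul, hn'i, one_mul]
          have hPi : i ≤ P := by omega
          refine hA' (n' - 1) (by omega) ?_ (fun _ => Or.inr ⟨c, by omega⟩) ?_
          · rw [hb]; omega
          · intro s hs'
            have := hs s hs'
            rw [hb]; omega
        · -- case (5): BadD with u = t
          have ht2 : t + 2 * m' = n' := by
            by_contra hcon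
            exact hneg ⟨c1', Or.inl ⟨by omega, hk00, ⟨c, hc⟩, by omega⟩⟩
          have hit : i * t + 2 * Q = P := by
            rw [hP, hQ, ← ht2]; ring
          refine hD' t ⟨c - m', by omega⟩ le_rfl ?_ ?_
          · omega
          · omega

end Cfsg.Agent.Lib.Helper48.TPB2EVEN
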