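import Mathlib
import Cfsg.Agent.Lib.Helper44.TPStmt

/-!
# S5973 / BADC (call by helper44): the element of MultElt fixes no totally singular `m`-space
-/

set_option autoImplicit false

universe u

namespace Cfsg.Agent.Lib.Helper48.TPBADC

open Cfsg.Agent.Lib.Helper44.TPStmt
open scoped Matrix

theorem main (hMult : MultElt.{u}) (hFix : FixND.{u}) (hTs : TsHalf.{u}) (hR : RImg.{u}) :
    BadC.{u} := by
  intro F _ _ p _ _ d m hd r _ hr2 hrp hev u hu1 hu2 hu3 hlt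
  obtain ⟨x, hxO, hxr, hxF, hxR⟩ := hMult F p d hd r hr2 hrp hev u hu1 hu2 hu3
  refine ⟨x, hxO, hxr, ?_⟩
  rintro ⟨W, hWm, hWts, hWst⟩
  have hxI : x ∈ Cfsg.isometryGroup F (Cfsg.quadFormPlus d F) := by
    obtain ⟨h, -, rfl⟩ := Subgroup.mem_map.mp hxO
    exact h.2
  obtain ⟨R, hRW, hRst, hRF, hRdim, -⟩ := hR F p d r hrp x hxr W hWst
  have hRbot : R = ⊥ := hxR R hRst hRF (fun w hw => hWts w (hRW hw))
  rw [hRbot, finrank_bot, zero_add, hWm] at hRdim
  have hND := hFix F p d r hrp x hxI hxr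
  have hhalf := hTs F d (Fx (x : Matrix (J d) (J d) F))
    (W ⊓ Fx (x : Matrix (J d) (J d) F)) hND inf_le_right (fun w hw => hWts w hw.1)
  rw [hRdim, hxF] at hhalf
  omega

end Cfsg.Agent.Lib.Helper48.TPBADC
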