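import Mathlib
import Cfsg.Agent.Lib.Helper74.WinStmt
import Cfsg.Agent.Lib.CT.Kernel
import Cfsg.Agent.Lib.CT.NormOne
import Cfsg.Agent.Lib.CT.Wedderburn
import Cfsg.Agent.Lib.Helper3.TDBasic

/-!
S4467 piece CON: a constituent of the restriction of a faithful irreducible character.
-/

set_option autoImplicit false

namespace Cfsg.Agent.Lib.Helper48.WinCON

open Cfsg Cfsg.Agent.Lib.Helper74.WinStmt
open Cfsg.Agent.Lib.CT Cfsg.Agent.Lib.CT.Wedderburn
open scoped ComplexConjugate

universe u

theorem main : Con.{u} := by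
  intro G _ _ χ hfaith H
  classical
  haveI := Fintype.ofFinite G
  haveI : Fintype H := Fintype.ofFinite H
  haveI := Cfsg.Agent.Lib.CT.Wedderburn.finite_irrCharacter H
  haveI := Fintype.ofFinite (IrrCharacter H)
  have hχc : IsCharacter G (χ : G → ℂ) := isCharacter_of_irr χ.2
  have hresc : IsCharacter H (fun k : H => (χ : G → ℂ) k) := Ops.isCharacter_restrict H hχc
  obtain ⟨mm, hmm1, hmm2, hmm3, -⟩ := Cfsg.Agent.Lib.Helper80.Restrict.exists_mult hresc
  have hdegres : charDegree (fun k : H => (χ : G → ℂ) k) = charDegree (χ : G → ℂ) := rfl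
  obtain ⟨η, hη⟩ : ∃ η : IrrCharacter H, mm η ≠ 0 := by
    by_contra h
    push Not at h
    have h0 : charDegree (χ : G → ℂ) = 0 := by
      rw [← hdegres, hmm3]
      simp [h]
    exact (irr_charDegree_pos χ.2).ne' h0
  have hcon : classInner (fun k : H => (χ : G → ℂ) k) (η : H → ℂ) ≠ 0 := by
    rw [hmm1 η]
    exact_mod_cast hη
  refine ⟨η, ?_, ?_⟩
  · intro z hz hηz
    have hnorm := Kernel.norm_eq_of_mem_center χ.2 hz
    obtain ⟨ω, hω1, -, hω3⟩ := Kernel.exists_scalar_of_norm_eq hχc hnorm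
    have hηc : IsCharacter H (η : H → ℂ) := isCharacter_of_irr η.2
    have hS : ∑ h : H, (χ : G → ℂ) h * conj ((η : H → ℂ) h) =
        ω * ∑ h : H, (χ : G → ℂ) h * conj ((η : H → ℂ) h) := by
      rw [Finset.mul_sum]
      rw [← Equiv.sum_comp (Equiv.mulLeft z)
        (fun h : H => (χ : G → ℂ) h * conj ((η : H → ℂ) h))]
      refine Finset.sum_congr rfl fun h _ => ?_
      simp only [Equiv.coe_mulLeft]
      rw [Kernel.apply_mul_of_eq hηc hηz h]
      have e : ((z * h : H) : G) = (z : G) * (h : G) := rfl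
      rw [e, hω1]
      ring
    have hsum : classInner (fun k : H => (χ : G → ℂ) k) (η : H → ℂ) =
        ω * classInner (fun k : H => (χ : G → ℂ) k) (η : H → ℂ) := by
      unfold classInner
      rw [mul_left_comm, ← hS]
    have hω : ω = 1 := by
      have h3 : (1 - ω) * classInner (fun k : H => (χ : G → ℂ) k) (η : H → ℂ) = 0 := by
        rw [sub_mul, one_mul, ← hsum, sub_self]
      rcases mul_eq_zero.1 h3 with h4 | h4
      · exact (sub_eq_zero.1 h4).symm
      · exact absurd h4 hcon
    have hz1 : (z : G) = 1 := hfaith _ (by rw [hω3, hω, one_mul])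
    exact Subtype.ext hz1
  · intro hHn
    haveI := hHn
    exact (Cfsg.Agent.Lib.Helper3.TDBasic.deg_of_constituent H η χ hcon).1

end Cfsg.Agent.Lib.Helper48.WinCON
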