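import Mathlib
import Cfsg.Agent.Lib.Helper74.WinStmt
import Cfsg.Agent.Lib.CT.Kernel
import Cfsg.Agent.Lib.CT.Clifford
import Cfsg.Agent.Lib.CT.Wedderburn
import Cfsg.Agent.Lib.Helper3.MGroup
import Cfsg.Agent.Lib.Helper78.CliffordCorr
import Cfsg.Agent.Lib.Helper80.Restrict

/-!
S4467 piece R3A: Clifford for an abelian normal subgroup.
-/

set_option autoImplicit false

namespace Cfsg.Agent.Lib.Helper48.WinR3A

open Cfsg Cfsg.Agent.Lib.Helper74.WinStmt
open Cfsg.Agent.Lib.CT Cfsg.Agent.Lib.CT.Wedderburn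
open scoped ComplexConjugate commutatorElement

universe u

theorem main : R3a.{u} := by
  intro G _ _ χ hfaith A hAn hAab
  classical
  haveI := Fintype.ofFinite G
  haveI : Fintype A := Fintype.ofFinite A
  haveI := hAn
  haveI := Cfsg.Agent.Lib.CT.Wedderburn.finite_irrCharacter A
  haveI := Fintype.ofFinite (IrrCharacter A)
  have hχc : IsCharacter G (χ : G → ℂ) := isCharacter_of_irr χ.2
  have hresc : IsCharacter A (fun k : A => (χ : G → ℂ) k) := Ops.isCharacter_restrict A hχc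
  obtain ⟨mm, hmm1, hmm2, hmm3, -⟩ := Cfsg.Agent.Lib.Helper80.Restrict.exists_mult hresc
  have hdegres : charDegree (fun k : A => (χ : G → ℂ) k) = charDegree (χ : G → ℂ) := rfl
  obtain ⟨μ, hμ⟩ : ∃ μ : IrrCharacter A, mm μ ≠ 0 := by
    by_contra h
    push Not at h
    have h0 : charDegree (χ : G → ℂ) = 0 := by
      rw [← hdegres, hmm3]
      simp [h]
    exact (irr_charDegree_pos χ.2).ne' h0
  have hcon : classInner (fun k : A => (χ : G → ℂ) k) (μ : A → ℂ) ≠ 0 := by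
    rw [hmm1 μ]
    exact_mod_cast hμ
  have hT : ∀ g : G, g ∈ Cfsg.Agent.Lib.Helper3.MGroup.inertia A (μ : A → ℂ) ↔
      ∀ n : A, (μ : A → ℂ) ⟨g * n * g⁻¹, hAn.conj_mem (n : G) n.2 g⟩ = (μ : A → ℂ) n :=
    fun g => Cfsg.Agent.Lib.Helper3.MGroup.mem_inertia A _ g
  have hAT : A ≤ Cfsg.Agent.Lib.Helper3.MGroup.inertia A (μ : A → ℂ) :=
    Cfsg.Agent.Lib.Helper3.MGroup.le_inertia A _ (char_isClassFunction (isCharacter_of_irr μ.2))
  haveI : Fintype (Cfsg.Agent.Lib.Helper3.MGroup.inertia A (μ : A → ℂ)) := Fintype.ofFinite _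
  refine ⟨Cfsg.Agent.Lib.Helper3.MGroup.inertia A (μ : A → ℂ), ?_, ?_⟩
  · obtain ⟨ψ, e, -, -, -, -, -, hdeg⟩ := Cfsg.Agent.Lib.Helper78.CliffordCorr.clifford_corr A hAn
      (μ : A → ℂ) μ.2 _ hT hAT (χ : G → ℂ) χ.2 hcon
    rw [hdeg]
    exact ⟨e * charDegree (μ : A → ℂ), by ring⟩
  · intro hTtop a ha
    have hinv : ∀ (g : G) (n : A),
        (μ : A → ℂ) ⟨g * n * g⁻¹, hAn.conj_mem (n : G) n.2 g⟩ = (μ : A → ℂ) n := by
      intro g
      exact (hT g).1 (by rw [hTtop]; exact Subgroup.mem_top g)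
    have hcl := Cfsg.Agent.Lib.CT.Clifford.clifford A hAn (χ : G → ℂ) χ.2 (μ : A → ℂ) μ.2 hcon
    have hS : {ψ : A → ℂ | ∃ g : G, ψ = fun n : A =>
        (μ : A → ℂ) ⟨g * n * g⁻¹, hAn.conj_mem n n.2 g⟩} = {(μ : A → ℂ)} := by
      ext ψ
      simp only [Set.mem_setOf_eq, Set.mem_singleton_iff]
      constructor
      · rintro ⟨g, rfl⟩
        funext n
        exact hinv g n
      · rintro rfl
        exact ⟨1, funext fun n => (hinv 1 n).symm⟩
    rw [hS, finsum_mem_singleton] at hcl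
    have hcommA : ∀ x y : A, x * y = y * x := fun x y => Subtype.ext (hAab x x.2 y y.2)
    have hμ1 : (μ : A → ℂ) 1 = 1 :=
      Cfsg.Agent.Lib.Helper3.MGroup.apply_one_eq_one_of_comm μ.2 (fun x y => by
        rw [commutatorElement_eq_one_iff_mul_comm.2 (hcommA x y)])
    have hc1 : (χ : G → ℂ) 1 = classInner (fun n : A => (χ : G → ℂ) n) (μ : A → ℂ) := by
      have h1 := congrFun hcl 1
      simp only [Pi.smul_apply, smul_eq_mul, hμ1, mul_one, Subgroup.coe_one] at h1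
      exact h1
    have hval : (χ : G → ℂ) a = (χ : G → ℂ) 1 * (μ : A → ℂ) ⟨a, ha⟩ := by
      have h1 := congrFun hcl ⟨a, ha⟩
      simp only [Pi.smul_apply, smul_eq_mul] at h1
      rw [hc1]
      exact h1
    have hnormμ : ‖(μ : A → ℂ) ⟨a, ha⟩‖ = 1 := by
      have hz : (⟨a, ha⟩ : A) ∈ Subgroup.center A := by
        rw [Subgroup.mem_center_iff]
        intro x
        exact hcommA x ⟨a, ha⟩
      have h1 := Kernel.norm_eq_of_mem_center μ.2 hz
      rw [hμ1] at h1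
      simpa using h1
    apply Kernel.mem_center_of_norm_eq hχc hfaith
    rw [hval, norm_mul, hnormμ, mul_one, ← char_natCast_charDegree hχc]
    simp

end Cfsg.Agent.Lib.Helper48.WinR3A
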