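import Mathlib
import Cfsg.Agent.Lib.Helper74.WinStmt
import Cfsg.Agent.Lib.CT.Kernel
import Cfsg.Agent.Lib.CT.NormOne
import Cfsg.Agent.Lib.CT.Wedderburn

/-!
S4467 piece SQ: a character vanishing off the centre.
-/

set_option autoImplicit false

namespace Cfsg.Agent.Lib.Helper48.WinSQ

open Cfsg Cfsg.Agent.Lib.Helper74.WinStmt
open Cfsg.Agent.Lib.CT Cfsg.Agent.Lib.CT.Wedderburn
open scoped ComplexConjugate

universe u

theorem main : Sq.{u} := by
  intro H _ _ η hη
  classical
  haveI := Fintype.ofFinite H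
  have hchar : IsCharacter H (η : H → ℂ) := isCharacter_of_irr η.2
  have hcf : IsClassFunction H (η : H → ℂ) := char_isClassFunction hchar
  have hd1 : (η : H → ℂ) 1 = (charDegree (η : H → ℂ) : ℂ) := (char_natCast_charDegree hchar).symm
  generalize charDegree (η : H → ℂ) = d at hd1 ⊢
  -- vanishing off the centre
  have hvan : ∀ c : H, c ∉ Subgroup.center H → (η : H → ℂ) c = 0 := by
    intro c hc
    obtain ⟨w, hz, hne⟩ := hη c hc
    have hnorm := Kernel.norm_eq_of_mem_center η.2 hz
    obtain ⟨ω, hω1, -, hω3⟩ := Kernel.exists_scalar_of_norm_eq hchar hnorm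
    have h1 : (η : H → ℂ) (w * c * w⁻¹ * c⁻¹ * c) = ω * (η : H → ℂ) c := hω1 c
    have h2 : w * c * w⁻¹ * c⁻¹ * c = w * c * w⁻¹ := by group
    rw [h2, hcf c w] at h1
    have hω : ω ≠ 1 := by
      intro h
      apply hne
      rw [hω3, h, one_mul]
    have h3 : (1 - ω) * (η : H → ℂ) c = 0 := by
      rw [sub_mul, one_mul, ← h1, sub_self]
    rcases mul_eq_zero.1 h3 with h4 | h4
    · exact absurd (sub_eq_zero.1 h4).symm hω
    · exact h4
  -- norm on the centre
  have hcen : ∀ z ∈ Subgroup.center H,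
      (η : H → ℂ) z * conj ((η : H → ℂ) z) = (d : ℂ) ^ 2 := by
    intro z hz
    have hnorm := Kernel.norm_eq_of_mem_center η.2 hz
    rw [hd1, Complex.natCast_re] at hnorm
    rw [Complex.mul_conj, Complex.normSq_eq_norm_sq, hnorm]
    push_cast
    ring
  have hinner := NormOne.inner_self_eq_one_of_irr η.2
  unfold classInner at hinner
  have hsum : ∑ g : H, (η : H → ℂ) g * conj ((η : H → ℂ) g) =
      (Nat.card (Subgroup.center H) : ℂ) * (d : ℂ) ^ 2 := by
    rw [← Finset.sum_subset (Finset.subset_univ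
      (Finset.univ.filter (fun g : H => g ∈ Subgroup.center H)))]
    · rw [Finset.sum_congr rfl (fun g hg => hcen g (Finset.mem_filter.1 hg).2),
        Finset.sum_const, nsmul_eq_mul]
      congr 2
      rw [Nat.card_eq_fintype_card, Fintype.card_subtype]
    · intro g _ hg
      have hg' : g ∉ Subgroup.center H := by
        intro h
        exact hg (Finset.mem_filter.2 ⟨Finset.mem_univ _, h⟩)
      rw [hvan g hg', zero_mul]
  rw [hsum] at hinner
  have hH0 : (Nat.card H : ℂ) ≠ 0 := by exact_mod_cast Nat.card_pos.ne'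
  have h5 : (Nat.card H : ℂ) = (Nat.card (Subgroup.center H) : ℂ) * (d : ℂ) ^ 2 := by
    have h6 := congrArg (fun t => (Nat.card H : ℂ) * t) hinner
    simp only [mul_one] at h6
    rw [← mul_assoc, mul_inv_cancel₀ hH0, one_mul] at h6
    exact h6.symm
  exact_mod_cast h5

end Cfsg.Agent.Lib.Helper48.WinSQ
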